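import Mathlib
import Cfsg.Agent.ItoDesign48.Setup

/-!
Finite projective planes with a group of collineations: basic counting, fixed elements and central
collineations (for the Ostrom–Wagner theorem).
-/

set_option autoImplicit false
set_option linter.unusedSectionVars false

namespace CfsgLib.OstromWagner98

open MulAction Finset
open scoped Classical

/-- A finite projective plane of order `n` with a faithful group of collineations. -/
structure Pln (G P L : Type) [Group G] [MulAction G P] [MulAction G L] where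
  inc : P → L → Prop
  inc_smul : ∀ (g : G) (p : P) (l : L), inc (g • p) (g • l) ↔ inc p l
  n : ℕ
  two_le : 2 ≤ n
  join : ∀ a b : P, a ≠ b → ∃ l, inc a l ∧ inc b l
  meet : ∀ l m : L, l ≠ m → ∃ a, inc a l ∧ inc a m
  eq_or : ∀ {a b : P} {l m : L}, inc a l → inc b l → inc a m → inc b m → a = b ∨ l = m
  pts : ∀ l, Nat.card {p // inc p l} = n + 1
  lns : ∀ p, Nat.card {l // inc p l} = n + 1
  faithful : ∀ g : G, (∀ p : P, g • p = p) → g = 1

/-- A semiregular group has order dividing the degree. -/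
theorem card_dvd_of_semireg {H α : Type*} [Group H] [MulAction H α] [Finite α]
    (h : ∀ (g : H) (x : α), g • x = x → g = 1) : Nat.card H ∣ Nat.card α := by
  rcases isEmpty_or_nonempty α with he | hne
  · rw [Nat.card_of_isEmpty (α := α)]; exact dvd_zero _
  obtain ⟨a⟩ := hne
  haveI : Finite H := Finite.of_injective (fun g : H => g • a) fun g g' e => by
    have := h (g⁻¹ * g') a (by rw [mul_smul]; exact inv_smul_eq_iff.2 e.symm)
    exact (inv_mul_eq_one.1 this)
  have hstab : ∀ x : α, stabilizer H x = ⊥ := fun x =>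
    (Subgroup.eq_bot_iff_forall _).2 fun g hg => h g x hg
  have hcard : ∀ ω : orbitRel.Quotient H α, Nat.card (H ⧸ stabilizer H ω.out) = Nat.card H := by
    intro ω
    rw [hstab]
    exact Nat.card_congr QuotientGroup.quotientBot.toEquiv
  rw [Nat.card_congr (selfEquivSigmaOrbitsQuotientStabilizer H α)]
  letI := Fintype.ofFinite (orbitRel.Quotient H α)
  rw [Nat.card_sigma, Finset.sum_congr rfl fun ω _ => hcard ω, Finset.sum_const, Finset.card_univ,
    smul_eq_mul]
  exact dvd_mul_left _ _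

variable {G P L : Type} [Group G] [MulAction G P] [MulAction G L]

namespace Pln

variable (D : Pln G P L)

/-- The dual plane. -/
def dual : Pln G L P where
  inc := fun l p => D.inc p l
  inc_smul := fun g l p => D.inc_smul g p l
  n := D.n
  two_le := D.two_le
  join := fun l m h => D.meet l m h
  meet := fun a b h => D.join a b h
  eq_or := fun h1 h2 h3 h4 => (D.eq_or h1 h3 h2 h4).symm
  pts := D.lns
  lns := D.pts
  faithful := fun g hg => D.faithful g fun p => by
    have h2 : 1 < Nat.card {l // D.inc p l} := by rw [D.lns]; have := D.two_le; omega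
    haveI : Finite {l // D.inc p l} := Nat.finite_of_card_ne_zero (by omega)
    obtain ⟨⟨l, hl⟩, ⟨m, hm⟩, hlm⟩ := @exists_pair_ne _ (Finite.one_lt_card_iff_nontrivial.1 h2)
    have h3 := (D.inc_smul g p l).2 hl
    have h4 := (D.inc_smul g p m).2 hm
    rw [hg] at h3 h4
    exact (D.eq_or h3 hl h4 hm).resolve_right fun e => hlm (Subtype.ext e)

@[simp] theorem dual_inc {p : P} {l : L} : D.dual.inc l p ↔ D.inc p l := Iff.rfl

@[simp] theorem dual_n : D.dual.n = D.n := rfl

/-- The line through two points. -/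
noncomputable def line (a b : P) (h : a ≠ b) : L := (D.join a b h).choose

theorem line_spec {a b : P} (h : a ≠ b) : D.inc a (D.line a b h) ∧ D.inc b (D.line a b h) :=
  (D.join a b h).choose_spec

theorem line_eq {a b : P} {l : L} (h : a ≠ b) (ha : D.inc a l) (hb : D.inc b l) :
    D.line a b h = l :=
  (D.eq_or (D.line_spec h).1 (D.line_spec h).2 ha hb).resolve_left h

theorem eq_line {a b : P} {l m : L} (h : a ≠ b) (ha : D.inc a l) (hb : D.inc b l)
    (ha' : D.inc a m) (hb' : D.inc b m) : l = m :=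
  (D.eq_or ha hb ha' hb').resolve_left h

theorem eq_point {a b : P} {l m : L} (h : l ≠ m) (ha : D.inc a l) (hb : D.inc b l)
    (ha' : D.inc a m) (hb' : D.inc b m) : a = b :=
  (D.eq_or ha hb ha' hb').resolve_right h

theorem inc_smul_of_fix {g : G} {l : L} (hl : g • l = l) {p : P} :
    D.inc (g • p) l ↔ D.inc p l := by
  conv_lhs => rw [← hl]
  exact D.inc_smul g p l

theorem smul_line_of_fix {g : G} {a b : P} {l : L} (h : a ≠ b) (ha : D.inc a l) (hb : D.inc b l)
    (hga : g • a = a) (hgb : g • b = b) : g • l = l := by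
  have h1 := (D.inc_smul g a l).2 ha
  have h2 := (D.inc_smul g b l).2 hb
  rw [hga] at h1
  rw [hgb] at h2
  exact D.eq_line h h1 h2 ha hb

theorem smul_point_of_fix {g : G} {a : P} {l m : L} (h : l ≠ m) (ha : D.inc a l) (hb : D.inc a m)
    (hgl : g • l = l) (hgm : g • m = m) : g • a = a :=
  D.eq_point h ((D.inc_smul_of_fix hgl).2 ha) ha ((D.inc_smul_of_fix hgm).2 hb) hb

variable [Fintype P] [Fintype L]

/-- The points of a line. -/
noncomputable def ptsF (l : L) : Finset P := {p | D.inc p l}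

/-- The lines through a point. -/
noncomputable def lnsF (p : P) : Finset L := {l | D.inc p l}

@[simp] theorem mem_ptsF {p : P} {l : L} : p ∈ D.ptsF l ↔ D.inc p l := by simp [ptsF]

@[simp] theorem mem_lnsF {p : P} {l : L} : l ∈ D.lnsF p ↔ D.inc p l := by simp [lnsF]

theorem card_ptsF (l : L) : #(D.ptsF l) = D.n + 1 := by
  rw [← D.pts l, Nat.card_eq_fintype_card, Fintype.card_subtype, ptsF]

theorem card_lnsF (p : P) : #(D.lnsF p) = D.n + 1 := by
  rw [← D.lns p, Nat.card_eq_fintype_card, Fintype.card_subtype, lnsF]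

theorem exists_inc_ne (l : L) (a : P) : ∃ p, D.inc p l ∧ p ≠ a := by
  obtain ⟨p, hp, hpa⟩ := Finset.exists_mem_ne (s := D.ptsF l)
    (by rw [D.card_ptsF]; have := D.two_le; omega) a
  exact ⟨p, D.mem_ptsF.1 hp, hpa⟩

theorem exists_inc_ne₂ (l : L) (a b : P) : ∃ p, D.inc p l ∧ p ≠ a ∧ p ≠ b := by
  have : ((D.ptsF l).erase a |>.erase b).Nonempty := by
    rw [← Finset.card_pos]
    have h1 : #(D.ptsF l) - 1 ≤ #((D.ptsF l).erase a) := Finset.pred_card_le_card_erase
    have h2 : #((D.ptsF l).erase a) - 1 ≤ #((D.ptsF l).erase a |>.erase b) :=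
      Finset.pred_card_le_card_erase
    rw [D.card_ptsF] at h1
    have := D.two_le
    omega
  obtain ⟨p, hp⟩ := this
  simp only [Finset.mem_erase, mem_ptsF] at hp
  exact ⟨p, hp.2.2, hp.2.1, hp.1⟩

theorem exists_line_ne (p : P) (l : L) : ∃ m, D.inc p m ∧ m ≠ l :=
  D.dual.exists_inc_ne p l

theorem exists_line_ne₂ (p : P) (l m : L) : ∃ k, D.inc p k ∧ k ≠ l ∧ k ≠ m :=
  D.dual.exists_inc_ne₂ p l m

theorem exists_not_inc_line (p : P) [Nonempty L] : ∃ l, ¬ D.inc p l := by
  obtain ⟨l⟩ := ‹Nonempty L›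
  by_cases h : D.inc p l
  · obtain ⟨q, hq, hqp⟩ := D.exists_inc_ne l p
    obtain ⟨m, hm, hml⟩ := D.exists_line_ne q l
    exact ⟨m, fun h' => hml (D.eq_line hqp hm h' hq h)⟩
  · exact ⟨l, h⟩

include D in
theorem nonempty_line (p : P) : Nonempty L := by
  have h := D.card_lnsF p
  obtain ⟨l, -⟩ := Finset.card_pos.1 (show 0 < #(D.lnsF p) by omega)
  exact ⟨l⟩

theorem exists_not_inc (l : L) : ∃ p, ¬ D.inc p l := by
  haveI : Nonempty P := by
    obtain ⟨p, -⟩ := Finset.card_pos.1 (show 0 < #(D.ptsF l) by rw [D.card_ptsF]; omega)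
    exact ⟨p⟩
  exact D.dual.exists_not_inc_line l

theorem card_points [Nonempty P] : Fintype.card P = D.n ^ 2 + D.n + 1 := by
  obtain ⟨p⟩ := ‹Nonempty P›
  have h := Finset.card_biUnion (s := D.lnsF p) (t := fun l => (D.ptsF l).erase p) (by
    intro l hl m hm hlm
    rw [Function.onFun, Finset.disjoint_left]
    intro x hx hx'
    simp only [Finset.mem_erase, mem_ptsF] at hx hx'
    exact hlm (D.eq_line hx.1 hx.2 (D.mem_lnsF.1 hl) hx'.2 (D.mem_lnsF.1 hm)))
  have hu : (D.lnsF p).biUnion (fun l => (D.ptsF l).erase p) = Finset.univ.erase p := by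
    ext x
    simp only [Finset.mem_biUnion, mem_lnsF, Finset.mem_erase, mem_ptsF, Finset.mem_univ, and_true]
    exact ⟨fun ⟨l, _, hx, _⟩ => hx,
      fun hx => ⟨_, (D.line_spec hx).2, hx, (D.line_spec hx).1⟩⟩
  have hl : ∀ l ∈ D.lnsF p, #((D.ptsF l).erase p) = D.n := fun l hl => by
    rw [Finset.card_erase_of_mem (D.mem_ptsF.2 (D.mem_lnsF.1 hl)), D.card_ptsF]; omega
  rw [hu, Finset.sum_congr rfl hl, Finset.sum_const, D.card_lnsF, smul_eq_mul,
    Finset.card_erase_of_mem (Finset.mem_univ _), Finset.card_univ] at h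
  have hP : 0 < Fintype.card P := Fintype.card_pos
  have : (D.n + 1) * D.n = D.n ^ 2 + D.n := by ring
  omega

theorem card_lines [Nonempty L] : Fintype.card L = D.n ^ 2 + D.n + 1 := D.dual.card_points

include D in
theorem card_lines_eq [Nonempty P] : Fintype.card L = Fintype.card P := by
  obtain ⟨p⟩ := ‹Nonempty P›
  haveI := D.nonempty_line p
  rw [D.card_lines, D.card_points]

include D in
/-- A collineation fixes as many points as lines. -/
theorem fix_eq [Nonempty P] (g : G) : #{p : P | g • p = p} = #{l : L | g • l = l} := by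
  obtain ⟨e⟩ : Nonempty (P ≃ L) := ⟨Fintype.equivOfCardEq D.card_lines_eq.symm⟩
  set M : Matrix P P ℚ := Matrix.of fun x y => if D.inc x (e y) then (1 : ℚ) else 0 with hM
  have hMM : ∀ x y, (M * M.transpose) x y = if x = y then (D.n : ℚ) + 1 else (1 : ℚ) := by
    intro x y
    have h1 : (M * M.transpose) x y = (#{l | D.inc x l ∧ D.inc y l} : ℕ) := by
      rw [Finset.natCast_card_filter, ← Equiv.sum_comp e]
      simp only [hM, Matrix.mul_apply, Matrix.transpose_apply, Matrix.of_apply]
      exact Finset.sum_congr rfl fun z _ => by split_ifs <;> simp_all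
    rw [h1]
    split_ifs with hxy
    · subst hxy
      have h2 : #{l | D.inc x l ∧ D.inc x l} = D.n + 1 := by
        simp only [and_self]; exact D.card_lnsF x
      rw [h2]; push_cast; ring
    · have h2 : #{l | D.inc x l ∧ D.inc y l} = 1 := by
        rw [Finset.card_eq_one]
        refine ⟨D.line x y hxy, ?_⟩
        ext l
        simp only [Finset.mem_filter, Finset.mem_univ, true_and, Finset.mem_singleton]
        exact ⟨fun h => (D.line_eq hxy h.1 h.2).symm, fun h => h ▸ D.line_spec hxy⟩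
      rw [h2]; norm_num
  have hdet := ItoDesign48.isUnit_det_of_design M (D.n : ℚ) 1
    (fun x y => by rw [hMM]) (by have := D.two_le; exact_mod_cast (show 0 < D.n by omega))
    zero_le_one
  have h := ItoDesign48.card_fix_eq_of_intertwine M hdet (MulAction.toPerm g)
    ((e.trans (MulAction.toPerm g)).trans e.symm) fun x y => by
      simp only [hM, Matrix.of_apply, Equiv.trans_apply, Equiv.apply_symm_apply,
        MulAction.toPerm_apply, D.inc_smul]
  simp only [MulAction.toPerm_apply] at h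
  refine h.trans (Finset.card_equiv e fun x => ?_)
  simp [Equiv.symm_apply_eq]

end Pln

/-! ### Axes and centres -/

namespace Pln

variable (D : Pln G P L)

/-- The group fixing a line pointwise. -/
def axG (l : L) : Subgroup G where
  carrier := {g | ∀ p, D.inc p l → g • p = p}
  mul_mem' := fun {x y} hx hy p hp => by rw [mul_smul, hy p hp, hx p hp]
  one_mem' := fun _ _ => one_smul _ _
  inv_mem' := fun {x} hx p hp => by rw [inv_smul_eq_iff, hx p hp]

/-- The group fixing every line through a point. -/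
def cenG (c : P) : Subgroup G := D.dual.axG c

/-- The group of central collineations with centre `c` and axis `l`. -/
def pcl (c : P) (l : L) : Subgroup G := D.cenG c ⊓ D.axG l

theorem mem_axG {l : L} {g : G} : g ∈ D.axG l ↔ ∀ p, D.inc p l → g • p = p := Iff.rfl

theorem mem_cenG {c : P} {g : G} : g ∈ D.cenG c ↔ ∀ l, D.inc c l → g • l = l := Iff.rfl

theorem mem_pcl {c : P} {l : L} {g : G} : g ∈ D.pcl c l ↔ g ∈ D.cenG c ∧ g ∈ D.axG l := Iff.rfl

theorem dual_axG (p : P) : D.dual.axG p = D.cenG p := rfl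

theorem dual_cenG (l : L) : D.dual.cenG l = D.axG l := rfl

theorem dual_pcl (c : P) (l : L) : D.dual.pcl l c = D.pcl c l := inf_comm _ _

theorem conj_mem_axG (h : G) {g : G} {l : L} (hg : g ∈ D.axG l) :
    h * g * h⁻¹ ∈ D.axG (h • l) := fun p hp => by
  rw [mul_smul, mul_smul, hg (h⁻¹ • p) (by rwa [← D.inc_smul h, smul_inv_smul]), smul_inv_smul]

theorem conj_mem_cenG (h : G) {g : G} {c : P} (hg : g ∈ D.cenG c) :
    h * g * h⁻¹ ∈ D.cenG (h • c) :=
  D.dual.conj_mem_axG h hg

theorem conj_mem_pcl (h : G) {g : G} {c : P} {l : L} (hg : g ∈ D.pcl c l) :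
    h * g * h⁻¹ ∈ D.pcl (h • c) (h • l) :=
  ⟨D.conj_mem_cenG h hg.1, D.conj_mem_axG h hg.2⟩

variable [Fintype P] [Fintype L]

theorem smul_eq_of_mem_axG {l : L} {g : G} (hg : g ∈ D.axG l) : g • l = l := by
  haveI : Nonempty P := by
    obtain ⟨p, -⟩ := Finset.card_pos.1 (show 0 < #(D.ptsF l) by rw [D.card_ptsF]; omega)
    exact ⟨p⟩
  obtain ⟨a, ha, -⟩ := D.exists_inc_ne l (Classical.arbitrary P)
  obtain ⟨b, hb, hba⟩ := D.exists_inc_ne l a
  exact D.smul_line_of_fix hba hb ha (hg b hb) (hg a ha)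

theorem smul_eq_of_mem_cenG {c : P} {g : G} (hg : g ∈ D.cenG c) : g • c = c :=
  D.dual.smul_eq_of_mem_axG hg

/-- A collineation with two centres is trivial. -/
theorem eq_one_of_two_centres {g : G} {c c' : P} (hcc : c ≠ c') (hc : g ∈ D.cenG c)
    (hc' : g ∈ D.cenG c') : g = 1 := by
  obtain ⟨m, hm⟩ : ∃ m, m = D.line c c' hcc := ⟨_, rfl⟩
  have hmc : D.inc c m := hm ▸ (D.line_spec hcc).1
  have hmc' : D.inc c' m := hm ▸ (D.line_spec hcc).2
  have hoff : ∀ x, ¬ D.inc x m → g • x = x := by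
    intro x hx
    have hxc : x ≠ c := fun e => hx (e ▸ hmc)
    have hxc' : x ≠ c' := fun e => hx (e ▸ hmc')
    refine D.smul_point_of_fix ?_ (D.line_spec hxc).1 (D.line_spec hxc').1
      (hc _ (D.line_spec hxc).2) (hc' _ (D.line_spec hxc').2)
    intro e
    have h1 := (D.line_spec hxc).2
    have h2 := (D.line_spec hxc').2
    rw [← e] at h2
    have := D.eq_line hcc h1 h2 hmc hmc'
    exact hx (this ▸ (D.line_spec hxc).1)
  refine D.faithful g fun x => ?_
  by_cases hx : D.inc x m
  swap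
  · exact hoff x hx
  obtain ⟨k, hk, hkm, -⟩ := D.exists_line_ne₂ x m m
  obtain ⟨j, hj, hjm, hjk⟩ := D.exists_line_ne₂ x m k
  have hline : ∀ i, D.inc x i → i ≠ m → g • i = i := by
    intro i hi him
    obtain ⟨a, ha, hax⟩ := D.exists_inc_ne i x
    obtain ⟨b, hb, hbx, hba⟩ := D.exists_inc_ne₂ i x a
    exact D.smul_line_of_fix hba hb ha
      (hoff b fun h => hbx (D.eq_point him hb hi h hx))
      (hoff a fun h => hax (D.eq_point him ha hi h hx))
  exact D.smul_point_of_fix hjk hj hk (hline j hj hjm) (hline k hk hkm)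

theorem eq_one_of_two_axes {g : G} {l m : L} (h : l ≠ m) (hl : g ∈ D.axG l)
    (hm : g ∈ D.axG m) : g = 1 :=
  D.dual.eq_one_of_two_centres h hl hm

theorem centre_unique {g : G} {c c' : P} (hg : g ≠ 1) (hc : g ∈ D.cenG c)
    (hc' : g ∈ D.cenG c') : c = c' :=
  by_contra fun h => hg (D.eq_one_of_two_centres h hc hc')

theorem axis_unique {g : G} {l m : L} (hg : g ≠ 1) (hl : g ∈ D.axG l) (hm : g ∈ D.axG m) :
    l = m :=
  D.dual.centre_unique hg hl hm

/-- A fixed point off the axis is the centre. -/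
theorem mem_cenG_of_fix {g : G} {l : L} {p : P} (hl : g ∈ D.axG l) (hp : ¬ D.inc p l)
    (hgp : g • p = p) : g ∈ D.cenG p := by
  intro k hk
  have hkl : k ≠ l := fun e => hp (e ▸ hk)
  obtain ⟨a, hak, hal⟩ := D.meet k l hkl
  have hap : p ≠ a := fun e => hp (e ▸ hal)
  exact D.smul_line_of_fix hap hk hak hgp (hl a hal)

theorem eq_one_of_fix {g : G} {c p : P} {l : L} (hg : g ∈ D.pcl c l) (hp : ¬ D.inc p l)
    (hpc : p ≠ c) (hgp : g • p = p) : g = 1 :=
  D.eq_one_of_two_centres hpc (D.mem_cenG_of_fix hg.2 hp hgp) hg.1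

theorem fix_pcl {g : G} {c p : P} {l : L} (hg : g ∈ D.pcl c l) (hg1 : g ≠ 1) :
    g • p = p ↔ D.inc p l ∨ p = c := by
  refine ⟨fun h => ?_, ?_⟩
  · by_contra hc
    push Not at hc
    exact hg1 (D.eq_one_of_fix hg hc.1 hc.2 h)
  · rintro (h | rfl)
    · exact hg.2 p h
    · exact D.smul_eq_of_mem_cenG hg.1

theorem fix_pcl_line {g : G} {c : P} {l m : L} (hg : g ∈ D.pcl c l) (hg1 : g ≠ 1) :
    g • m = m ↔ D.inc c m ∨ m = l :=
  D.dual.fix_pcl (p := m) (by rwa [dual_pcl]) hg1

/-- A collineation with an axis has a centre. -/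
theorem exists_centre {g : G} {l : L} (hl : g ∈ D.axG l) : ∃ c, g ∈ D.cenG c := by
  by_cases h : ∃ p, ¬ D.inc p l ∧ g • p = p
  · obtain ⟨p, hp, hgp⟩ := h
    exact ⟨p, D.mem_cenG_of_fix hl hp hgp⟩
  push Not at h
  have hP : Nonempty P := ⟨(D.exists_not_inc l).choose⟩
  have hfix : ({p : P | g • p = p} : Finset P) = D.ptsF l := by
    ext p
    simp only [Finset.mem_filter, Finset.mem_univ, true_and, mem_ptsF]
    exact ⟨fun hp => by_contra fun hpl => h p hpl hp, hl p⟩
  have hc : #{m : L | g • m = m} = D.n + 1 := by rw [← D.fix_eq, hfix, D.card_ptsF]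
  obtain ⟨k, hk, hkl⟩ : ∃ k ∈ ({m : L | g • m = m} : Finset L), k ≠ l :=
    Finset.exists_mem_ne (by rw [hc]; have := D.two_le; omega) l
  simp only [Finset.mem_filter, Finset.mem_univ, true_and] at hk
  obtain ⟨c, hck, hcl⟩ := D.meet k l hkl
  have hsub : ({m : L | g • m = m} : Finset L) ⊆ D.lnsF c := by
    intro m hm
    simp only [Finset.mem_filter, Finset.mem_univ, true_and] at hm
    rw [mem_lnsF]
    by_cases hml : m = l
    · rwa [hml]
    by_cases hmk : m = k
    · rwa [hmk]
    obtain ⟨a, ham, hak⟩ := D.meet m k hmk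
    have hga := D.smul_point_of_fix hmk ham hak hm hk
    have hal : D.inc a l := by_contra fun ha => h a ha hga
    rwa [D.eq_point hkl.symm hcl hal hck hak]
  have heq := Finset.eq_of_subset_of_card_le hsub (by rw [D.card_lnsF, hc])
  refine ⟨c, fun m hm => ?_⟩
  have : m ∈ ({m : L | g • m = m} : Finset L) := by rw [heq]; exact D.mem_lnsF.2 hm
  simpa using this

theorem exists_pcl_of_axis {g : G} {l : L} (hl : g ∈ D.axG l) : ∃ c, g ∈ D.pcl c l := by
  obtain ⟨c, hc⟩ := D.exists_centre hl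
  exact ⟨c, hc, hl⟩

theorem exists_pcl_of_centre {g : G} {c : P} (hc : g ∈ D.cenG c) : ∃ l, g ∈ D.pcl c l := by
  obtain ⟨l, hl⟩ := D.dual.exists_centre hc
  exact ⟨l, hc, hl⟩

/-- Elations with a given centre and axis act semiregularly on another line through the centre. -/
theorem card_pcl_dvd_of_inc [Finite G] {c : P} {l : L} (hcl : D.inc c l) :
    Nat.card (D.pcl c l) ∣ D.n := by
  obtain ⟨m, hcm, hml⟩ := D.exists_line_ne c l
  letI : MulAction (D.pcl c l) {p // D.inc p m ∧ p ≠ c} :=
    { smul := fun g p => ⟨(g : G) • (p : P), by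
        refine ⟨(D.inc_smul_of_fix (g.2.1 m hcm)).2 p.2.1, fun e => p.2.2 ?_⟩
        conv at e => rhs; rw [← D.smul_eq_of_mem_cenG g.2.1]
        exact smul_left_cancel _ e⟩
      one_smul := fun p => Subtype.ext (one_smul G (p : P))
      mul_smul := fun g h p => Subtype.ext (mul_smul (g : G) (h : G) (p : P)) }
  have hcard : Nat.card {p // D.inc p m ∧ p ≠ c} = D.n := by
    rw [Nat.card_eq_fintype_card, Fintype.card_subtype,
      show ({p | D.inc p m ∧ p ≠ c} : Finset P) = (D.ptsF m).erase c by ext p; simp [and_comm],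
      Finset.card_erase_of_mem (D.mem_ptsF.2 hcm), D.card_ptsF]
    omega
  rw [← hcard]
  refine card_dvd_of_semireg fun g p hp => Subtype.ext ?_
  refine D.eq_one_of_fix g.2 (fun h => p.2.2 ?_) p.2.2 (congrArg Subtype.val hp)
  exact D.eq_point hml p.2.1 hcm h hcl

/-- Homologies with a given centre and axis act semiregularly on a line through the centre. -/
theorem card_pcl_dvd_of_not_inc [Finite G] {c : P} {l : L} (hcl : ¬ D.inc c l) :
    Nat.card (D.pcl c l) ∣ D.n - 1 := by
  obtain ⟨a, hal⟩ : ∃ a, D.inc a l := by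
    obtain ⟨a, ha, -⟩ := D.exists_inc_ne l c
    exact ⟨a, ha⟩
  have hca : c ≠ a := fun e => hcl (e ▸ hal)
  obtain ⟨hcm, ham⟩ := D.line_spec hca
  generalize D.line c a hca = m at hcm ham
  have hml : m ≠ l := fun e => hcl (e ▸ hcm)
  letI : MulAction (D.pcl c l) {p // D.inc p m ∧ p ≠ c ∧ p ≠ a} :=
    { smul := fun g p => ⟨(g : G) • (p : P), by
        refine ⟨(D.inc_smul_of_fix (g.2.1 m hcm)).2 p.2.1, fun e => p.2.2.1 ?_,
          fun e => p.2.2.2 ?_⟩
        · conv at e => rhs; rw [← D.smul_eq_of_mem_cenG g.2.1]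
          exact smul_left_cancel _ e
        · conv at e => rhs; rw [← g.2.2 a hal]
          exact smul_left_cancel _ e⟩
      one_smul := fun p => Subtype.ext (one_smul G (p : P))
      mul_smul := fun g h p => Subtype.ext (mul_smul (g : G) (h : G) (p : P)) }
  have hcard : Nat.card {p // D.inc p m ∧ p ≠ c ∧ p ≠ a} = D.n - 1 := by
    rw [Nat.card_eq_fintype_card, Fintype.card_subtype,
      show ({p | D.inc p m ∧ p ≠ c ∧ p ≠ a} : Finset P) = ((D.ptsF m).erase c).erase a by
        ext p; simp; tauto,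
      Finset.card_erase_of_mem (Finset.mem_erase.2 ⟨hca.symm, D.mem_ptsF.2 ham⟩),
      Finset.card_erase_of_mem (D.mem_ptsF.2 hcm), D.card_ptsF]
    omega
  rw [← hcard]
  refine card_dvd_of_semireg fun g p hp => Subtype.ext ?_
  refine D.eq_one_of_fix g.2 (fun h => p.2.2.2 ?_) p.2.2.1 (congrArg Subtype.val hp)
  exact D.eq_point hml p.2.1 ham h hal

end Pln

end CfsgLib.OstromWagner98
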