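import Mathlib
import Cfsg.Agent.OstromWagner98.Basic

/-!
Orbit counting in a projective plane: two-point transitivity, flags and antiflags.
-/

set_option autoImplicit false
set_option linter.style.haveILetI false
set_option linter.unusedSectionVars false

namespace CfsgLib.OstromWagner98

open MulAction Finset
open scoped Classical

variable {G P L : Type} [Group G] [MulAction G P] [MulAction G L] [Fintype P] [Fintype L]

namespace Pln

variable (D : Pln G P L)

/-- Transitivity on ordered pairs of points. -/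
def Two : Prop := ∀ a b c d : P, a ≠ b → c ≠ d → ∃ g : G, g • a = c ∧ g • b = d

/-- Transitivity on flags. -/
def Flag : Prop :=
  ∀ (a c : P) (l m : L), D.inc a l → D.inc c m → ∃ g : G, g • a = c ∧ g • l = m

/-- Transitivity on antiflags. -/
def AntiFlag : Prop :=
  ∀ (a c : P) (l m : L), ¬ D.inc a l → ¬ D.inc c m → ∃ g : G, g • a = c ∧ g • l = m

theorem two_flag (h : Two (G := G) (P := P)) : D.Flag := by
  intro a c l m ha hc
  obtain ⟨b, hb, hba⟩ := D.exists_inc_ne l a
  obtain ⟨d, hd, hdc⟩ := D.exists_inc_ne m c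
  obtain ⟨g, hga, hgb⟩ := h a b c d hba.symm hdc.symm
  refine ⟨g, hga, D.eq_line hdc.symm ?_ ?_ hc hd⟩
  · rw [← hga]; exact (D.inc_smul g a l).2 ha
  · rw [← hgb]; exact (D.inc_smul g b l).2 hb

section Orbits

variable [Finite G] [Nonempty P]

include D in
theorem orbits_eq :
    Nat.card (orbitRel.Quotient G (P × P)) = Nat.card (orbitRel.Quotient G (P × L)) ∧
      Nat.card (orbitRel.Quotient G (P × P)) = Nat.card (orbitRel.Quotient G (L × L)) := by
  haveI := Fintype.ofFinite G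
  have key : ∀ (α : Type) [Fintype α] [MulAction G α],
      (∀ g : G, Nat.card (fixedBy α g) = Nat.card (fixedBy (P × P) g)) →
      Nat.card (orbitRel.Quotient G (P × P)) = Nat.card (orbitRel.Quotient G α) := by
    intro α _ _ h
    have b1 := sum_card_fixedBy_eq_card_orbits_mul_card_group G (P × P)
    have b2 := sum_card_fixedBy_eq_card_orbits_mul_card_group G α
    simp only [← Nat.card_eq_fintype_card] at b1 b2
    rw [Finset.sum_congr rfl fun g _ => h g, b1] at b2
    exact Nat.eq_of_mul_eq_mul_right Nat.card_pos b2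
  have hprod : ∀ (α β : Type) [Fintype α] [Fintype β] [MulAction G α] [MulAction G β] (g : G),
      Nat.card (fixedBy (α × β) g) = #{x : α | g • x = x} * #{y : β | g • y = y} := by
    intro α β _ _ _ _ g
    rw [← Finset.card_product, Nat.card_eq_fintype_card, Fintype.card_subtype]
    congr 1
    ext ⟨x, y⟩
    simp [mem_fixedBy, Prod.ext_iff]
  refine ⟨key _ fun g => ?_, key _ fun g => ?_⟩
  · rw [hprod, hprod, ← D.fix_eq g]
  · rw [hprod, hprod, ← D.fix_eq g]

omit [MulAction G L] [Fintype L] in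
theorem orbit_mk_eq {α : Type} [MulAction G α] {x y : α} :
    (Quotient.mk'' x : orbitRel.Quotient G α) = Quotient.mk'' y ↔ ∃ g : G, g • x = y := by
  constructor
  · intro h
    obtain ⟨g, hg⟩ := orbitRel_apply.1 (Quotient.exact' h.symm)
    exact ⟨g, hg⟩
  · rintro ⟨g, rfl⟩
    exact (Quotient.sound' (orbitRel_apply.2 (mem_orbit x g))).symm

include D in
theorem card_orbits_pairs_le (h : Two (G := G) (P := P)) :
    Nat.card (orbitRel.Quotient G (P × P)) ≤ 2 := by
  by_contra hc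
  haveI := Fintype.ofFinite (orbitRel.Quotient G (P × P))
  rw [Nat.card_eq_fintype_card, not_le, ← Finset.card_univ, Finset.two_lt_card] at hc
  obtain ⟨A, -, B, -, C, -, hAB, hAC, hBC⟩ := hc
  induction A using Quotient.inductionOn' with | _ x
  induction B using Quotient.inductionOn' with | _ y
  induction C using Quotient.inductionOn' with | _ z
  have key : ∀ u v : P × P, (u.1 = u.2 ↔ v.1 = v.2) →
      (Quotient.mk'' u : orbitRel.Quotient G (P × P)) = Quotient.mk'' v := by
    rintro ⟨a, b⟩ ⟨c, d⟩ huv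
    simp only at huv
    rw [orbit_mk_eq]
    by_cases hab : a = b
    · have hcd := huv.1 hab
      subst hab hcd
      obtain ⟨e, he⟩ : ∃ e, e ≠ a := by
        obtain ⟨l⟩ := D.nonempty_line a
        obtain ⟨e, -, he⟩ := D.exists_inc_ne l a
        exact ⟨e, he⟩
      obtain ⟨f, hf⟩ : ∃ f, f ≠ c := by
        obtain ⟨l⟩ := D.nonempty_line a
        obtain ⟨e, -, he⟩ := D.exists_inc_ne l c
        exact ⟨e, he⟩
      obtain ⟨g, hg, -⟩ := h a e c f he.symm hf.symm
      exact ⟨g, by rw [Prod.smul_mk, hg]⟩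
    · obtain ⟨g, hg, hg'⟩ := h a b c d hab fun e => hab (huv.2 e)
      exact ⟨g, by rw [Prod.smul_mk, hg, hg']⟩
  by_cases h1 : x.1 = x.2 ↔ y.1 = y.2
  · exact hAB (key _ _ h1)
  by_cases h2 : x.1 = x.2 ↔ z.1 = z.2
  · exact hAC (key _ _ h2)
  exact hBC (key y z (by tauto))

theorem eq_orbit_of_le_two {α : Type} [MulAction G α] [Finite α] (p : α → Prop)
    (hp : ∀ (g : G) x, p (g • x) ↔ p x) (hle : Nat.card (orbitRel.Quotient G α) ≤ 2)
    {x₀ : α} (hx₀ : p x₀) {x y : α} (hx : ¬ p x) (hy : ¬ p y) : ∃ g : G, g • x = y := by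
  by_contra hc
  haveI := Fintype.ofFinite (orbitRel.Quotient G α)
  have hne : ∀ z, ¬ p z →
      (Quotient.mk'' x₀ : orbitRel.Quotient G α) ≠ Quotient.mk'' z := by
    intro z hz e
    obtain ⟨g, hg⟩ := orbit_mk_eq.1 e
    exact hz (hg ▸ (hp g x₀).2 hx₀)
  have h3 := Finset.card_le_univ
    ({Quotient.mk'' x₀, Quotient.mk'' x, Quotient.mk'' y} : Finset (orbitRel.Quotient G α))
  rw [Finset.card_eq_three.2 ⟨_, _, _, hne x hx, hne y hy, fun e => hc (orbit_mk_eq.1 e), rfl⟩,
    ← Nat.card_eq_fintype_card] at h3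
  omega

theorem two_antiflag (h : Two (G := G) (P := P)) : D.AntiFlag := by
  intro a c l m ha hc
  obtain ⟨l₀⟩ := D.nonempty_line a
  obtain ⟨p, hp, -⟩ := D.exists_inc_ne l₀ a
  obtain ⟨g, hg⟩ := eq_orbit_of_le_two (G := G) (fun x : P × L => D.inc x.1 x.2)
    (fun g x => D.inc_smul g x.1 x.2) ((D.orbits_eq.1) ▸ D.card_orbits_pairs_le h)
    (x₀ := (p, l₀)) hp (x := (a, l)) (y := (c, m)) ha hc
  exact ⟨g, congrArg Prod.fst hg, congrArg Prod.snd hg⟩

include D in
theorem two_dual (h : Two (G := G) (P := P)) : Two (G := G) (P := L) := by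
  intro l m j k hlm hjk
  obtain ⟨g, hg⟩ := eq_orbit_of_le_two (G := G) (fun x : L × L => x.1 = x.2)
    (fun g x => smul_left_cancel_iff g) ((D.orbits_eq.2) ▸ D.card_orbits_pairs_le h)
    (x₀ := (l, l)) rfl (x := (l, m)) (y := (j, k)) hlm hjk
  exact ⟨g, congrArg Prod.fst hg, congrArg Prod.snd hg⟩

/-- An antiflag transitive group is doubly transitive on points. -/
theorem antiflag_two (h : D.AntiFlag) : Two (G := G) (P := P) := by
  have hpt : ∀ a c : P, ∃ g : G, g • a = c := by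
    intro a c
    haveI := D.nonempty_line a
    obtain ⟨l, hl⟩ := D.exists_not_inc_line a
    obtain ⟨m, hm⟩ := D.exists_not_inc_line c
    obtain ⟨g, hg, -⟩ := h a c l m hl hm
    exact ⟨g, hg⟩
  haveI := Fintype.ofFinite (orbitRel.Quotient G (P × P))
  haveI := Fintype.ofFinite (orbitRel.Quotient G (P × L))
  obtain ⟨a₀⟩ := ‹Nonempty P›
  haveI := D.nonempty_line a₀
  obtain ⟨l₀, hl₀⟩ := D.exists_not_inc_line a₀
  let A : orbitRel.Quotient G (P × L) := Quotient.mk'' (a₀, l₀)
  let Δ : orbitRel.Quotient G (P × P) := Quotient.mk'' (a₀, a₀)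
  let f : P × P → P × L := fun x => if hx : x.1 = x.2 then (a₀, l₀) else (x.1, D.line x.1 x.2 hx)
  let Φ : orbitRel.Quotient G (P × P) → orbitRel.Quotient G (P × L) :=
    Quotient.lift (fun x => (Quotient.mk'' (f x) : orbitRel.Quotient G (P × L))) (by
      intro x y hxy
      obtain ⟨g, rfl⟩ := hxy
      simp only [f]
      by_cases hy : y.1 = y.2
      · rw [dif_pos (show (g • y).1 = (g • y).2 by simp [hy]), dif_pos hy]
      · have hgy : ¬ (g • y).1 = (g • y).2 := fun e => hy (smul_left_cancel g e)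
        rw [dif_neg hgy, dif_neg hy]
        refine (orbit_mk_eq.2 ⟨g, ?_⟩).symm
        rw [Prod.smul_mk, D.line_eq hgy ((D.inc_smul g _ _).2 (D.line_spec hy).1)
          ((D.inc_smul g _ _).2 (D.line_spec hy).2)]
        rfl)
  have hΦ : ∀ x, Φ (Quotient.mk'' x) = Quotient.mk'' (f x) := fun x => rfl
  have hsurj : Function.Surjective Φ := by
    intro z
    induction z using Quotient.inductionOn' with | _ z
    obtain ⟨a, l⟩ := z
    by_cases hal : D.inc a l
    · obtain ⟨b, hb, hba⟩ := D.exists_inc_ne l a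
      refine ⟨Quotient.mk'' (a, b), ?_⟩
      rw [hΦ]
      simp only [f, dif_neg hba.symm, D.line_eq hba.symm hal hb]
    · refine ⟨Δ, ?_⟩
      rw [hΦ, orbit_mk_eq]
      simp only [f, dite_true]
      obtain ⟨g, h1, h2⟩ := h a₀ a l₀ l hl₀ hal
      exact ⟨g, by rw [Prod.smul_mk, h1, h2]⟩
  have hinj : Function.Injective Φ :=
    ((Nat.bijective_iff_surjective_and_card Φ).2 ⟨hsurj, D.orbits_eq.1⟩).1
  have hline : ∀ a b b' : P, a ≠ b → a ≠ b' → (∃ l, D.inc a l ∧ D.inc b l ∧ D.inc b' l) →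
      ∃ g : G, g • a = a ∧ g • b = b' := by
    rintro a b b' hb hb' ⟨l, hal, hbl, hb'l⟩
    have e : Φ (Quotient.mk'' (a, b)) = Φ (Quotient.mk'' (a, b')) := by
      rw [hΦ, hΦ]
      simp only [f, dif_neg hb, dif_neg hb', D.line_eq hb hal hbl, D.line_eq hb' hal hb'l]
    obtain ⟨g, hg⟩ := orbit_mk_eq.1 (hinj e)
    exact ⟨g, congrArg Prod.fst hg, congrArg Prod.snd hg⟩
  -- transitivity on every line
  have honline : ∀ l x y, D.inc x l → D.inc y l → ∃ g : G, g • l = l ∧ g • x = y := by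
    intro l x y hx hy
    obtain ⟨a, ha, hax, hay⟩ := D.exists_inc_ne₂ l x y
    obtain ⟨g, hga, hgx⟩ := hline a x y hax hay ⟨l, ha, hx, hy⟩
    refine ⟨g, D.eq_line hay ?_ ?_ ha hy, hgx⟩
    · rw [← hga]; exact (D.inc_smul g a l).2 ha
    · rw [← hgx]; exact (D.inc_smul g x l).2 hx
  intro a b c d hab hcd
  obtain ⟨hal, hbl⟩ := D.line_spec hab
  obtain ⟨hcm, hdm⟩ := D.line_spec hcd
  generalize D.line a b hab = l at hal hbl
  generalize D.line c d hcd = m at hcm hdm
  obtain ⟨u, hu⟩ := D.exists_not_inc l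
  obtain ⟨w, hw⟩ := D.exists_not_inc m
  obtain ⟨g₁, -, hg₁⟩ := h u w l m hu hw
  obtain ⟨g₂, hg₂, hg₂a⟩ := honline m (g₁ • a) c
    (by rw [← hg₁]; exact (D.inc_smul g₁ a l).2 hal) hcm
  have hab' : c ≠ g₂ • g₁ • b := by
    rw [← hg₂a]; exact fun e => hab (smul_left_cancel _ (smul_left_cancel _ e))
  have hbm : D.inc (g₂ • g₁ • b) m := by
    rw [← hg₂, D.inc_smul, ← hg₁, D.inc_smul]; exact hbl
  obtain ⟨g₃, hg₃c, hg₃⟩ := hline c _ d hab' hcd ⟨m, hcm, hbm, hdm⟩
  exact ⟨g₃ * g₂ * g₁, by rw [mul_smul, mul_smul, hg₂a, hg₃c], by rw [mul_smul, mul_smul, hg₃]⟩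

end Orbits

end Pln

end CfsgLib.OstromWagner98
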