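import Mathlib

/-!
Small group-theoretic tools for the Ostrom–Wagner theorem: maximal `p`-subgroups, parity of fixed
points and an orbit criterion.
-/

set_option autoImplicit false
set_option linter.unusedSectionVars false

namespace CfsgLib.OstromWagner98

open MulAction Finset
open scoped Classical

variable {G : Type} [Group G] [Finite G] {p : ℕ}

/-- `B` is a maximal `p`-subgroup of `S`. -/
def MaxP (p : ℕ) (S B : Subgroup G) : Prop :=
  B ≤ S ∧ IsPGroup p B ∧ ∀ C : Subgroup G, C ≤ S → IsPGroup p C → B ≤ C → C = B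

theorem exists_maxP (S A : Subgroup G) (hA : A ≤ S) (hAp : IsPGroup p A) :
    ∃ B, A ≤ B ∧ MaxP p S B := by
  obtain ⟨T, hT⟩ := (hAp.comap_subtype (H := A) (K := S)).exists_le_sylow
  refine ⟨(T : Subgroup S).map S.subtype, ?_, Subgroup.map_subtype_le _, T.2.map _, ?_⟩
  · intro x hx
    exact ⟨⟨x, hA hx⟩, hT hx, rfl⟩
  · intro C hC hCp hle
    refine le_antisymm (fun x hx => ⟨⟨x, hC hx⟩, ?_, rfl⟩) hle
    rw [← T.is_maximal' (hCp.comap_subtype (H := C) (K := S))
      (fun y hy => hle ⟨y, hy, rfl⟩)]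
    exact hx

theorem MaxP.exists_conj [Fact p.Prime] {S A B : Subgroup G} (hB : MaxP p S B) (hA : A ≤ S)
    (hAp : IsPGroup p A) : ∃ k ∈ S, ∀ a ∈ A, k * a * k⁻¹ ∈ B := by
  obtain ⟨T, hT⟩ := (hAp.comap_subtype (H := A) (K := S)).exists_le_sylow
  obtain ⟨U, hU⟩ := (hB.2.1.comap_subtype (H := B) (K := S)).exists_le_sylow
  obtain ⟨k, hk⟩ := MulAction.exists_smul_eq ↥S T U
  refine ⟨k, k.2, fun a ha => ?_⟩
  have hBU : (U : Subgroup S).map S.subtype = B :=
    hB.2.2 _ (Subgroup.map_subtype_le _) (U.2.map _) fun x hx => ⟨⟨x, hB.1 hx⟩, hU hx, rfl⟩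
  rw [← hBU, ← hk, Sylow.coe_subgroup_smul]
  refine ⟨k * ⟨a, hA ha⟩ * k⁻¹, ?_, rfl⟩
  exact Subgroup.smul_mem_pointwise_smul _ (MulAut.conj k) _
    (hT (show (⟨a, hA ha⟩ : S) ∈ A.comap S.subtype from ha))

/-- A maximal `p`-subgroup has the largest order. -/
theorem MaxP.card_le [Fact p.Prime] {S A B : Subgroup G} (hB : MaxP p S B) (hA : A ≤ S)
    (hAp : IsPGroup p A) : Nat.card A ≤ Nat.card B := by
  obtain ⟨k, -, hk⟩ := hB.exists_conj hA hAp
  exact Nat.card_le_card_of_injective (fun a : A => (⟨k * a * k⁻¹, hk a a.2⟩ : B)) fun a b e =>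
    Subtype.ext (mul_left_cancel (mul_right_cancel (congrArg Subtype.val e)))

theorem maxP_of_card [Fact p.Prime] {S B : Subgroup G} (hB : B ≤ S) (hBp : IsPGroup p B)
    (h : ∀ C : Subgroup G, C ≤ S → IsPGroup p C → Nat.card C ≤ Nat.card B) : MaxP p S B :=
  ⟨hB, hBp, fun C hC hCp hle => (Subgroup.eq_of_le_of_card_ge hle (h C hC hCp)).symm⟩

omit [Finite G] in
/-- A group of order prime to `p` has no element of order `p`. -/
theorem pgroup_zpowers_of_orderOf {g : G} {k : ℕ} (hg : orderOf g = p ^ k) :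
    IsPGroup p (Subgroup.zpowers g) :=
  IsPGroup.of_card (by rw [Nat.card_zpowers, hg])

section Parity

variable {α : Type}

/-- An involutory map moves an even number of points of an invariant set. -/
theorem card_mod_two (O : Finset α) (f : α → α) (hO : ∀ x ∈ O, f x ∈ O)
    (hf : ∀ x ∈ O, f (f x) = x) : #O % 2 = #{x ∈ O | f x = x} % 2 := by
  have h0 : ∑ _x ∈ ({x ∈ O | ¬ f x = x} : Finset α), (1 : ZMod 2) = 0 := by
    refine Finset.sum_involution (fun x _ => f x) (fun _ _ => by decide) ?_ ?_ ?_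
    · intro x hx _
      exact (Finset.mem_filter.1 hx).2
    · intro x hx
      obtain ⟨h1, h2⟩ := Finset.mem_filter.1 hx
      exact Finset.mem_filter.2 ⟨hO x h1, fun e => h2 (by rw [hf x h1] at e; exact e.symm)⟩
    · intro x hx
      exact hf x (Finset.mem_filter.1 hx).1
  have heven : 2 ∣ #({x ∈ O | ¬ f x = x} : Finset α) := by
    rw [← ZMod.natCast_eq_zero_iff]
    simpa using h0
  have hsum := Finset.card_filter_add_card_filter_not (s := O) (fun x => f x = x)
  omega

variable [MulAction G α] [Fintype α]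

omit [Finite G] in
/-- Gleason's parity lemma: if every point of `X` is the only fixed point on `X` of some
involution of `S`, then `S` is transitive on `X`. -/
theorem trans_of_involutions (S : Subgroup G) (X : Finset α)
    (hX : ∀ s ∈ S, ∀ x ∈ X, s • x ∈ X)
    (h : ∀ x ∈ X, ∃ t ∈ S, t * t = 1 ∧ ∀ y ∈ X, t • y = y ↔ y = x) :
    ∀ x ∈ X, ∀ y ∈ X, ∃ s ∈ S, s • x = y := by
  intro x hx y hy
  by_contra hc
  let O : Finset α := {z | ∃ s ∈ S, s • x = z}
  have hOX : ∀ z ∈ O, z ∈ X := by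
    intro z hz
    obtain ⟨s, hs, rfl⟩ := (Finset.mem_filter.1 hz).2
    exact hX s hs x hx
  have hinv : ∀ t ∈ S, ∀ z ∈ O, t • z ∈ O := by
    intro t ht z hz
    obtain ⟨s, hs, rfl⟩ := (Finset.mem_filter.1 hz).2
    exact Finset.mem_filter.2 ⟨Finset.mem_univ _, t * s, S.mul_mem ht hs, mul_smul t s x⟩
  obtain ⟨t, htS, ht2, ht⟩ := h x hx
  obtain ⟨u, huS, hu2, hu⟩ := h y hy
  have hxO : x ∈ O := Finset.mem_filter.2 ⟨Finset.mem_univ _, 1, S.one_mem, one_smul _ x⟩
  have h1 := card_mod_two O (fun z => t • z) (hinv t htS)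
    (fun z _ => by rw [smul_smul, ht2, one_smul])
  have h2 := card_mod_two O (fun z => u • z) (hinv u huS)
    (fun z _ => by rw [smul_smul, hu2, one_smul])
  have e1 : ({z ∈ O | t • z = z} : Finset α) = {x} := by
    ext z
    simp only [Finset.mem_filter, Finset.mem_singleton]
    exact ⟨fun ⟨hz, hz'⟩ => (ht z (hOX z hz)).1 hz', fun e => e ▸ ⟨hxO, (ht x hx).2 rfl⟩⟩
  have e2 : ({z ∈ O | u • z = z} : Finset α) = ∅ := by
    rw [Finset.filter_eq_empty_iff]
    intro z hz hz'
    have := (hu z (hOX z hz)).1 hz'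
    subst this
    exact hc (Finset.mem_filter.1 hz).2
  rw [e1, Finset.card_singleton] at h1
  rw [e2, Finset.card_empty] at h2
  omega

end Parity

end CfsgLib.OstromWagner98
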