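import Mathlib
import Cfsg.Agent.OstromWagner98.Basic
import Cfsg.Agent.OstromWagner98.Tools

/-!
The group of elations with a given centre.
-/

set_option autoImplicit false
set_option linter.unusedSectionVars false

namespace CfsgLib.OstromWagner98

open MulAction Finset
open scoped Classical

variable {G P L : Type} [Group G] [MulAction G P] [MulAction G L] [Fintype P] [Fintype L]

namespace Pln

variable (D : Pln G P L)

/-- An involution with an axis. -/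
def InvP (h : G) (l : L) : Prop := h * h = 1 ∧ h ≠ 1 ∧ h ∈ D.axG l

theorem InvP.orderOf_eq {D : Pln G P L} {h : G} {l : L} (hh : D.InvP h l) : orderOf h = 2 :=
  orderOf_eq_prime (by rw [sq, hh.1]) hh.2.1

theorem InvP.inv_eq {D : Pln G P L} {h : G} {l : L} (hh : D.InvP h l) : h⁻¹ = h :=
  inv_eq_of_mul_eq_one_right hh.1

theorem orderOf_dvd_of_mem [Finite G] {g : G} {H : Subgroup G} (hg : g ∈ H) :
    orderOf g ∣ Nat.card H := by
  have := orderOf_dvd_natCard (⟨g, hg⟩ : H)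
  rwa [Subgroup.orderOf_mk] at this

/-- In a plane of odd order an involution with an axis is a homology. -/
theorem not_inc_of_odd [Finite G] (hodd : Odd D.n) {h : G} {k : P} {l : L}
    (hh : D.InvP h l) (hk : h ∈ D.cenG k) : ¬ D.inc k l := by
  intro hkl
  have h2 := (orderOf_dvd_of_mem (show h ∈ D.pcl k l from ⟨hk, hh.2.2⟩)).trans
    (D.card_pcl_dvd_of_inc hkl)
  rw [hh.orderOf_eq] at h2
  exact Nat.not_even_iff_odd.2 hodd (even_iff_two_dvd.2 h2)

/-- In a plane of even order an involution with an axis is an elation. -/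
theorem inc_of_even [Finite G] (heven : Even D.n) {h : G} {k : P} {l : L}
    (hh : D.InvP h l) (hk : h ∈ D.cenG k) : D.inc k l := by
  by_contra hkl
  have h2 := (orderOf_dvd_of_mem (show h ∈ D.pcl k l from ⟨hk, hh.2.2⟩)).trans
    (D.card_pcl_dvd_of_not_inc hkl)
  rw [hh.orderOf_eq] at h2
  obtain ⟨a, ha⟩ := heven
  obtain ⟨b, hb⟩ := h2
  have := D.two_le
  omega

/-- Two involutory homologies with the same centre and different axes give an elation. -/
theorem exists_elation_of_two_axes [Finite G] (hodd : Odd D.n) {c : P} {l l' : L} {h h' : G}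
    (hll : l ≠ l') (hh : D.InvP h l) (hh' : D.InvP h' l') (hc : h ∈ D.cenG c)
    (hc' : h' ∈ D.cenG c) :
    ∃ g M, g ≠ 1 ∧ D.inc c M ∧ g ∈ D.pcl c M ∧
      ∀ x, D.inc x l → D.inc x l' → D.inc x M := by
  have hg1 : h * h' ≠ 1 := fun e => hll (D.axis_unique hh.2.1 hh.2.2 (by
    rw [show h = h' by rw [← hh.inv_eq]; exact inv_eq_of_mul_eq_one_right e]
    exact hh'.2.2))
  obtain ⟨M, hM⟩ := D.exists_pcl_of_centre ((D.cenG c).mul_mem hc hc')
  have hinv : h * (h * h') * h⁻¹ = (h * h')⁻¹ := by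
    rw [_root_.mul_inv_rev, hh'.inv_eq, hh.inv_eq, ← mul_assoc, hh.1, one_mul]
  have hhM : h • M = M := by
    refine D.axis_unique hg1 ?_ hM.2
    have h1 := D.conj_mem_axG h hM.2
    rw [hinv] at h1
    have h2 := (D.axG (h • M)).inv_mem h1
    rwa [inv_inv] at h2
  have hcM : D.inc c M := by
    rcases (D.fix_pcl_line (show h ∈ D.pcl c l from ⟨hc, hh.2.2⟩) hh.2.1).1 hhM with h1 | h1
    · exact h1
    exfalso
    subst h1
    have h2 : h' ∈ D.axG M := by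
      have := (D.axG M).mul_mem hh.2.2 hM.2
      rwa [← mul_assoc, hh.1, one_mul] at this
    exact hll (D.axis_unique hh'.2.1 h2 hh'.2.2)
  refine ⟨h * h', M, hg1, hcM, hM, fun x hx hx' => ?_⟩
  have hfix : (h * h') • x = x := by rw [mul_smul, hh'.2.2 x hx', hh.2.2 x hx]
  rcases (D.fix_pcl hM hg1).1 hfix with h1 | h1
  · exact h1
  · subst h1
    exact absurd hx (D.not_inc_of_odd hodd hh hc)

/-- The elations with centre `c`. -/
def IsEl (c : P) (g : G) : Prop := ∃ M, D.inc c M ∧ g ∈ D.pcl c M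

theorem IsEl.one (c : P) : D.IsEl c 1 := by
  obtain ⟨l, hl⟩ := Finset.card_pos.1 (show 0 < #(D.lnsF c) by rw [D.card_lnsF]; omega)
  exact ⟨l, D.mem_lnsF.1 hl, (D.pcl c l).one_mem⟩

theorem IsEl.mul {c : P} {x y : G} (hx : D.IsEl c x) (hy : D.IsEl c y) : D.IsEl c (x * y) := by
  by_cases hx1 : x = 1
  · rwa [hx1, one_mul]
  by_cases hy1 : y = 1
  · rwa [hy1, mul_one]
  obtain ⟨M, hcM, hxM⟩ := hx
  obtain ⟨M', hcM', hyM'⟩ := hy
  by_cases hMM : M = M'
  · subst hMM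
    exact ⟨M, hcM, (D.pcl c M).mul_mem hxM hyM'⟩
  obtain ⟨N, hN⟩ := D.exists_pcl_of_centre ((D.cenG c).mul_mem hxM.1 hyM'.1)
  refine ⟨N, by_contra fun hcN => ?_, hN⟩
  have hNM : N ≠ M' := fun e => hcN (e ▸ hcM')
  obtain ⟨a, haN, haM'⟩ := D.meet N M' hNM
  have hxa : x • a = a := by
    have h1 := hN.2 a haN
    rwa [mul_smul, hyM'.2 a haM'] at h1
  have hac : a ≠ c := fun e => hcN (e ▸ haN)
  have haM : D.inc a M := ((D.fix_pcl hxM hx1).1 hxa).resolve_right hac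
  exact hac (D.eq_point hMM haM hcM haM' hcM')

theorem IsEl.inv {c : P} {x : G} (hx : D.IsEl c x) : D.IsEl c x⁻¹ := by
  obtain ⟨M, hcM, hxM⟩ := hx
  exact ⟨M, hcM, (D.pcl c M).inv_mem hxM⟩

/-- The group of elations with centre `c`. -/
def elC (c : P) : Subgroup G where
  carrier := {g | D.IsEl c g}
  mul_mem' := fun hx hy => IsEl.mul D hx hy
  one_mem' := IsEl.one D c
  inv_mem' := fun hx => IsEl.inv D hx

theorem mem_elC {c : P} {g : G} : g ∈ D.elC c ↔ ∃ M, D.inc c M ∧ g ∈ D.pcl c M := Iff.rfl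

theorem pcl_le_elC {c : P} {M : L} (h : D.inc c M) : D.pcl c M ≤ D.elC c :=
  fun _ hg => ⟨M, h, hg⟩

theorem commute_of_axes_ne {c : P} {M M' : L} {x y : G} (hMM : M ≠ M') (hcM : D.inc c M)
    (hcM' : D.inc c M') (hx : x ∈ D.pcl c M) (hy : y ∈ D.pcl c M') : x * y = y * x := by
  have h1 : y * x⁻¹ * y⁻¹ ∈ D.pcl c M := by
    have := D.conj_mem_pcl y ((D.pcl c M).inv_mem hx)
    rwa [D.smul_eq_of_mem_cenG hy.1, hy.1 M hcM] at this
  have h2 : x * y * x⁻¹ ∈ D.pcl c M' := by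
    have := D.conj_mem_pcl x hy
    rwa [D.smul_eq_of_mem_cenG hx.1, hx.1 M' hcM'] at this
  have h3 : x * y * x⁻¹ * y⁻¹ = 1 := D.eq_one_of_two_axes hMM
    (by rw [show x * y * x⁻¹ * y⁻¹ = x * (y * x⁻¹ * y⁻¹) by group]
        exact ((D.pcl c M).mul_mem hx h1).2)
    ((D.pcl c M').mul_mem h2 ((D.pcl c M').inv_mem hy)).2
  rwa [mul_inv_eq_one, mul_inv_eq_iff_eq_mul] at h3

/-- Two elations with a common centre and different axes make the elation group elementary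
abelian. -/
theorem elC_elementary [Finite G] {c : P} {M M' : L} {x y : G} (hMM : M ≠ M') (hcM : D.inc c M)
    (hcM' : D.inc c M') (hx : x ∈ D.pcl c M) (hy : y ∈ D.pcl c M') (hx1 : x ≠ 1) (hy1 : y ≠ 1) :
    (∀ a ∈ D.elC c, ∀ b ∈ D.elC c, a * b = b * a) ∧
      ∃ p : ℕ, p.Prime ∧ ∀ e ∈ D.elC c, e ^ p = 1 := by
  have hcomm : ∀ a ∈ D.elC c, ∀ b ∈ D.elC c, a * b = b * a := by
    rintro a ⟨A, hA, ha⟩ b ⟨B, hB, hb⟩
    by_cases hAB : A = B
    swap
    · exact D.commute_of_axes_ne hAB hA hB ha hb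
    subst hAB
    by_cases ha1 : a = 1
    · rw [ha1, one_mul, mul_one]
    obtain ⟨C, e, hC, he, he1, hCA⟩ : ∃ C e, D.inc c C ∧ e ∈ D.pcl c C ∧ e ≠ 1 ∧ C ≠ A := by
      by_cases hMA : M = A
      · exact ⟨M', y, hcM', hy, hy1, fun e => hMM (hMA.trans e.symm)⟩
      · exact ⟨M, x, hcM, hx, hx1, hMA⟩
    obtain ⟨C', hC', hbe⟩ := IsEl.mul D ⟨A, hA, hb⟩ ⟨C, hC, he⟩
    have hC'A : C' ≠ A := by
      intro e'
      subst e'
      have h1 : e ∈ D.axG C' := by
        have := (D.axG C').mul_mem ((D.axG C').inv_mem hb.2) hbe.2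
        rwa [inv_mul_cancel_left] at this
      exact hCA (D.axis_unique he1 he.2 h1)
    have h1 := D.commute_of_axes_ne hC'A.symm hA hC' ha hbe
    have h2 := D.commute_of_axes_ne hCA.symm hA hC ha he
    have h3 : Commute a (b * e * e⁻¹) := Commute.mul_right h1 (Commute.inv_right h2)
    rwa [mul_inv_cancel_right] at h3
  refine ⟨hcomm, ?_⟩
  set p := (orderOf x).minFac with hpdef
  have hord1 : orderOf x ≠ 1 := fun e => hx1 (orderOf_eq_one_iff.1 e)
  have hp : p.Prime := Nat.minFac_prime hord1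
  refine ⟨p, hp, ?_⟩
  set x₁ := x ^ (orderOf x / p) with hx₁def
  have hx₁ : orderOf x₁ = p := by
    rw [hx₁def]
    exact orderOf_pow_orderOf_div (isOfFinOrder_of_finite x).orderOf_pos.ne' (Nat.minFac_dvd _)
  have hx₁M : x₁ ∈ D.pcl c M := (D.pcl c M).pow_mem hx _
  have hx₁1 : x₁ ≠ 1 := fun e => hp.ne_one (by rw [← hx₁, e, orderOf_one])
  -- every elation of another axis has exponent `p`
  have key : ∀ (A : L) (u : G), D.inc c A → u ∈ D.pcl c A → u ≠ 1 → u ^ p = 1 →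
      ∀ (B : L) (e : G), D.inc c B → B ≠ A → e ∈ D.pcl c B → e ^ p = 1 := by
    intro A u hA hu hu1 hup B e hB hBA he
    by_cases he1 : e = 1
    · rw [he1, one_pow]
    obtain ⟨C, hC, hue⟩ := IsEl.mul D ⟨A, hA, hu⟩ ⟨B, hB, he⟩
    have hCB : C ≠ B := by
      intro e'
      subst e'
      have h1 : u ∈ D.axG C := by
        have := (D.axG C).mul_mem hue.2 ((D.axG C).inv_mem he.2)
        rwa [mul_inv_cancel_right] at this
      exact hBA (D.axis_unique hu1 h1 hu.2)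
    have h2 : (u * e) ^ p = e ^ p := by
      rw [(show Commute u e from D.commute_of_axes_ne hBA.symm hA hB hu he).mul_pow, hup, one_mul]
    exact D.eq_one_of_two_axes hCB (h2 ▸ ((D.pcl c C).pow_mem hue p).2)
      ((D.pcl c B).pow_mem he p).2
  have hy' : y ^ p = 1 :=
    key M x₁ hcM hx₁M hx₁1 (by rw [← hx₁, pow_orderOf_eq_one]) M' y hcM' hMM.symm hy
  rintro e ⟨B, hB, he⟩
  by_cases hBM : B = M
  · exact key M' y hcM' hy hy1 hy' B e hB (hBM ▸ hMM) he
  · exact key M x₁ hcM hx₁M hx₁1 (by rw [← hx₁, pow_orderOf_eq_one]) B e hB hBM he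

theorem card_pcl_prime_pow [Finite G] {c : P} {p : ℕ} (hp : p.Prime)
    (h : ∀ e ∈ D.elC c, e ^ p = 1) {H : Subgroup G} (hH : H ≤ D.elC c) :
    ∃ i, Nat.card H = p ^ i := by
  haveI := Fact.mk hp
  exact IsPGroup.iff_card.1 fun g : H => ⟨1, Subtype.ext (by simpa using h g (hH g.2))⟩

/-- Counting the elations with a given centre by axes. -/
theorem card_elC [Finite G] (c : P) :
    Nat.card (D.elC c) - 1 = ∑ M ∈ D.lnsF c, (Nat.card (D.pcl c M) - 1) := by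
  haveI := Fintype.ofFinite G
  let E : Finset G := {g | g ∈ D.elC c ∧ g ≠ 1}
  let S : L → Finset G := fun M => {g | g ∈ D.pcl c M ∧ g ≠ 1}
  have hH : ∀ H : Subgroup G, #({g | g ∈ H ∧ g ≠ 1} : Finset G) = Nat.card H - 1 := by
    intro H
    rw [show ({g | g ∈ H ∧ g ≠ 1} : Finset G) = ({g | g ∈ H} : Finset G).erase 1 by
      ext g; simp [and_comm], Finset.card_erase_of_mem (by simp [H.one_mem]),
      Nat.card_eq_fintype_card, Fintype.card_subtype]
  have hEu : E = (D.lnsF c).biUnion S := by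
    ext g
    simp only [E, S, Finset.mem_filter, Finset.mem_univ, true_and, Finset.mem_biUnion, mem_lnsF,
      mem_elC]
    exact ⟨fun ⟨⟨M, hM, hg⟩, h1⟩ => ⟨M, hM, hg, h1⟩, fun ⟨M, hM, hg, h1⟩ => ⟨⟨M, hM, hg⟩, h1⟩⟩
  have hdis : ((D.lnsF c : Finset L) : Set L).PairwiseDisjoint S := by
    intro A _ B _ hAB
    rw [Function.onFun, Finset.disjoint_left]
    intro g hg hg'
    simp only [S, Finset.mem_filter] at hg hg'
    exact hg.2.2 (D.eq_one_of_two_axes hAB hg.2.1.2 hg'.2.1.2)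
  have h := congrArg Finset.card hEu
  rw [Finset.card_biUnion hdis, hH] at h
  rw [h]
  exact Finset.sum_congr rfl fun M _ => hH _

theorem card_mul_le [Finite G] {c : P} {A B : L} (hA : D.inc c A) (hB : D.inc c B) (hAB : A ≠ B) :
    Nat.card (D.pcl c A) * Nat.card (D.pcl c B) ≤ Nat.card (D.elC c) := by
  rw [← Nat.card_prod]
  refine Nat.card_le_card_of_injective
    (fun z : D.pcl c A × D.pcl c B =>
      (⟨z.1 * z.2, (D.elC c).mul_mem ⟨A, hA, z.1.2⟩ ⟨B, hB, z.2.2⟩⟩ : D.elC c))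
    fun ⟨a, b⟩ ⟨a', b'⟩ e => ?_
  simp only [Subtype.mk.injEq] at e
  have h1 : (a' : G)⁻¹ * a = b' * (b : G)⁻¹ := by
    rw [inv_mul_eq_iff_eq_mul, ← mul_assoc, ← e, mul_inv_cancel_right]
  have h2 : (a' : G)⁻¹ * a = 1 := D.eq_one_of_two_axes hAB
    ((D.pcl c A).mul_mem ((D.pcl c A).inv_mem a'.2) a.2).2
    (h1 ▸ ((D.pcl c B).mul_mem b'.2 ((D.pcl c B).inv_mem b.2)).2)
  have ha : a' = a := Subtype.ext (inv_mul_eq_one.1 h2)
  subst ha
  exact Prod.ext rfl (Subtype.ext (mul_left_cancel e))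

/-- The arithmetic of a partition of an elation group by axes. -/
theorem order_eq_of_partition {ι : Type} (s : Finset ι) (f : ι → ℕ) (E n : ℕ) (hn : #s = n + 1)
    (h1 : ∀ i ∈ s, 1 ≤ f i) (hE : E - 1 = ∑ i ∈ s, (f i - 1))
    (hle : ∀ i ∈ s, ∀ j ∈ s, i ≠ j → f i * f j ≤ E)
    (hpart : ∀ i ∈ s, ∃ j ∈ s, j ≠ i ∧ f i * f j = E)
    (htwo : ∃ i ∈ s, ∃ j ∈ s, i ≠ j ∧ 2 ≤ f i ∧ 2 ≤ f j) :
    ∃ i ∈ s, f i = n := by
  have hne : s.Nonempty := Finset.card_pos.1 (by omega)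
  obtain ⟨i₀, hi₀, hmax⟩ := Finset.exists_max_image s f hne
  refine ⟨i₀, hi₀, ?_⟩
  have heq : ∀ i ∈ s, i ≠ i₀ → f i * f i₀ = E := by
    intro i hi hne'
    refine le_antisymm (hle i hi i₀ hi₀ hne') ?_
    obtain ⟨j, hj, -, hij⟩ := hpart i hi
    exact hij ▸ Nat.mul_le_mul_left _ (hmax j hj)
  obtain ⟨i₁, hi₁, h10, h12⟩ : ∃ i ∈ s, i ≠ i₀ ∧ 2 ≤ f i := by
    obtain ⟨i, hi, j, hj, hij, h2i, h2j⟩ := htwo
    by_cases h : i = i₀
    · exact ⟨j, hj, fun e => hij (h.trans e.symm), h2j⟩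
    · exact ⟨i, hi, h, h2i⟩
  have hsame : ∀ i ∈ s.erase i₀, f i - 1 = f i₁ - 1 := by
    intro i hi
    obtain ⟨hine, his⟩ := Finset.mem_erase.1 hi
    have := (heq i his hine).trans (heq i₁ hi₁ h10).symm
    rw [Nat.eq_of_mul_eq_mul_right (h1 i₀ hi₀) this]
  rw [← Finset.add_sum_erase s _ hi₀, Finset.sum_congr rfl hsame, Finset.sum_const,
    Finset.card_erase_of_mem hi₀, hn, smul_eq_mul, Nat.add_sub_cancel,
    ← heq i₁ hi₁ h10] at hE
  have hS := h1 i₀ hi₀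
  obtain ⟨S, hS'⟩ : ∃ S, f i₀ = S + 1 := ⟨f i₀ - 1, by omega⟩
  obtain ⟨t, ht⟩ : ∃ t, f i₁ = t + 1 := ⟨f i₁ - 1, by omega⟩
  rw [hS', ht, Nat.add_sub_cancel, Nat.add_sub_cancel] at hE
  have e : (t + 1) * (S + 1) - 1 = S + t * (S + 1) := by
    rw [Nat.add_mul, one_mul]; omega
  rw [e, add_right_inj, mul_comm n t] at hE
  rw [hS']
  exact Nat.eq_of_mul_eq_mul_left (by omega) hE

end Pln

end CfsgLib.OstromWagner98
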