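import Mathlib
import Cfsg.Agent.OstromWagner98.Elation

/-!
A plane of odd order in which any two points, and any two lines, are fixed by an involution, all
involutions being homologies, has prime power order.
-/

set_option autoImplicit false
set_option linter.unusedSectionVars false
set_option linter.style.haveILetI false

namespace CfsgLib.OstromWagner98

open MulAction Finset
open scoped Classical

variable {G P L : Type} [Group G] [MulAction G P] [MulAction G L] [Fintype P] [Fintype L]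
  [Finite G]

namespace Pln

variable (D : Pln G P L)

/-- Every involution has an axis, and any two points are fixed by an involution. -/
structure Rich : Prop where
  inv_axis : ∀ g : G, g * g = 1 → g ≠ 1 → ∃ l, g ∈ D.axG l
  pair_point : ∀ a b : P, a ≠ b → ∃ g : G, g * g = 1 ∧ g ≠ 1 ∧ g • a = a ∧ g • b = b
  pair_line : ∀ l m : L, l ≠ m → ∃ g : G, g * g = 1 ∧ g ≠ 1 ∧ g • l = l ∧ g • m = m

theorem Rich.dual {D : Pln G P L} (h : D.Rich) : D.dual.Rich where
  inv_axis := fun g h1 h2 => by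
    obtain ⟨l, hl⟩ := h.inv_axis g h1 h2
    exact D.exists_centre hl
  pair_point := h.pair_line
  pair_line := h.pair_point

theorem Rich.exists_invP {D : Pln G P L} (h : D.Rich) {g : G} (h1 : g * g = 1) (h2 : g ≠ 1) :
    ∃ k N, D.InvP g N ∧ g ∈ D.cenG k := by
  obtain ⟨N, hN⟩ := h.inv_axis g h1 h2
  obtain ⟨k, hk⟩ := D.exists_centre hN
  exact ⟨k, N, ⟨h1, h2, hN⟩, hk⟩

/-- In odd order every line is the axis of an involution. -/
theorem odd_every_axis (hodd : Odd D.n) (hR : D.Rich) (l : L) : ∃ g, D.InvP g l := by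
  by_contra hc
  push Not at hc
  haveI : Fact (Nat.Prime 2) := ⟨Nat.prime_two⟩
  -- involutions fixing two points of `l`
  have hfix : ∀ (g : G) (a b : P), a ≠ b → D.inc a l → D.inc b l → g * g = 1 → g ≠ 1 →
      g • a = a → g • b = b →
      (g ∈ D.cenG a ∨ g ∈ D.cenG b) ∧ ∀ y, D.inc y l → (g • y = y ↔ y = a ∨ y = b) := by
    intro g a b hab ha hb h2 h1 hga hgb
    obtain ⟨k, N, hN, hk⟩ := hR.exists_invP h2 h1
    have hkN := D.not_inc_of_odd hodd hN hk
    have hNl : N ≠ l := fun e => hc g (e ▸ hN)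
    have hiff := fun y => D.fix_pcl (p := y) (show g ∈ D.pcl k N from ⟨hk, hN.2.2⟩) h1
    rcases (hiff a).1 hga with haN | hak
    · rcases (hiff b).1 hgb with hbN | hbk
      · exact absurd (D.eq_line hab haN hbN ha hb) hNl
      · subst hbk
        refine ⟨Or.inr hk, fun y hy => (hiff y).trans ⟨?_, ?_⟩⟩
        · rintro (h | h)
          · exact Or.inl (D.eq_point hNl h haN hy ha)
          · exact Or.inr h
        · rintro (h | h)
          · exact Or.inl (h ▸ haN)
          · exact Or.inr h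
    · subst hak
      have hbN : D.inc b N := ((hiff b).1 hgb).resolve_right fun e => hab e.symm
      refine ⟨Or.inl hk, fun y hy => (hiff y).trans ⟨?_, ?_⟩⟩
      · rintro (h | h)
        · exact Or.inr (D.eq_point hNl h hbN hy hb)
        · exact Or.inl h
      · rintro (h | h)
        · exact Or.inr h
        · exact Or.inl (h ▸ hbN)
  -- transitivity on the other points of `l`
  have htr : ∀ x u v, D.inc x l → D.inc u l → D.inc v l → u ≠ x → v ≠ x →
      ∃ s : G, s • l = l ∧ s • x = x ∧ s • u = v := by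
    intro x u v hx hu hv hux hvx
    obtain ⟨s, hs, hsu⟩ := trans_of_involutions
      (stabilizer G l ⊓ stabilizer G x) ((D.ptsF l).erase x) (by
        intro s hs y hy
        simp only [Finset.mem_erase, mem_ptsF] at hy ⊢
        exact ⟨fun e => hy.1 (by
          rw [← (hs.2 : s • x = x)] at e
          exact smul_left_cancel _ e), (D.inc_smul_of_fix hs.1).2 hy.2⟩)
      (by
        intro y hy
        simp only [Finset.mem_erase, mem_ptsF] at hy
        obtain ⟨g, h2, h1, hgy, hgx⟩ := hR.pair_point y x hy.1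
        refine ⟨g, ⟨D.smul_line_of_fix hy.1 hy.2 hx hgy hgx, hgx⟩, h2, fun z hz => ?_⟩
        simp only [Finset.mem_erase, mem_ptsF] at hz
        rw [(hfix g y x hy.1 hy.2 hx h2 h1 hgy hgx).2 z hz.2]
        exact or_iff_left hz.1)
      u (by simp [hux, hu]) v (by simp [hvx, hv])
    exact ⟨s, hs.1, hs.2, hsu⟩
  -- a central involution of a Sylow 2-subgroup of a two point stabiliser
  have hn := D.two_le
  haveI : Nonempty P := ⟨(D.exists_not_inc l).choose⟩
  obtain ⟨a, ha, -⟩ := D.exists_inc_ne l (Classical.arbitrary P)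
  obtain ⟨b, hb, hba⟩ := D.exists_inc_ne l a
  obtain ⟨t, ht2, ht1, hta, htb⟩ := hR.pair_point a b hba.symm
  obtain ⟨B, htB, hB⟩ := exists_maxP (p := 2) (stabilizer G a ⊓ stabilizer G b) (Subgroup.zpowers t)
    (by rw [Subgroup.zpowers_le]; exact ⟨hta, htb⟩)
    (pgroup_zpowers_of_orderOf (k := 1) (by rw [pow_one]; exact orderOf_eq_prime (by rw [sq, ht2]) ht1))
  haveI : Nontrivial B := ⟨⟨⟨t, htB (Subgroup.mem_zpowers t)⟩, 1, fun e => ht1 (congrArg Subtype.val e)⟩⟩
  haveI := hB.2.1.center_nontrivial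
  obtain ⟨e, he⟩ := IsPGroup.iff_card.1 (hB.2.1.to_subgroup (Subgroup.center B))
  have he0 : e ≠ 0 := by
    rintro rfl
    exact absurd he (by rw [pow_zero]; exact (Finite.one_lt_card (α := Subgroup.center B)).ne')
  obtain ⟨⟨⟨z, hzB⟩, hzc⟩, hz⟩ := exists_prime_orderOf_dvd_card' (G := Subgroup.center B) 2
    (he ▸ dvd_pow_self 2 he0)
  have hz' : orderOf z = 2 := by simpa only [Subgroup.orderOf_mk] using hz
  have hz2 : z * z = 1 := by rw [← sq, ← hz', pow_orderOf_eq_one]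
  have hz1 : z ≠ 1 := fun e => by rw [e, orderOf_one] at hz'; omega
  obtain ⟨hza, hzb⟩ := hB.1 hzB
  -- name the centre `c`
  obtain ⟨c, o, hco, hc', ho', hzc', hset⟩ : ∃ c o, c ≠ o ∧ D.inc c l ∧ D.inc o l ∧ z ∈ D.cenG c ∧
      ∀ g : G, g ∈ stabilizer G a ⊓ stabilizer G b ↔ g • c = c ∧ g • o = o := by
    rcases (hfix z a b hba.symm ha hb hz2 hz1 hza hzb).1 with h | h
    · exact ⟨a, b, hba.symm, ha, hb, h, fun g => Iff.rfl⟩
    · exact ⟨b, a, hba, hb, ha, h, fun g => and_comm⟩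
  -- a collineation exchanging `c` and `o`
  obtain ⟨d, hd, hdc, hdo⟩ := D.exists_inc_ne₂ l c o
  obtain ⟨s₁, hs₁l, hs₁c, hs₁o⟩ := htr c o d hc' ho' hd hco.symm hdc
  obtain ⟨s₂, hs₂l, hs₂d, hs₂c⟩ := htr d c o hd hc' ho' hdc.symm hdo.symm
  obtain ⟨s₃, hs₃l, hs₃o, hs₃d⟩ := htr o d c ho' hd hc' hdo hco
  set g := s₃ * s₂ * s₁ with hg
  have hgc : g • c = o := by rw [hg, mul_smul, mul_smul, hs₁c, hs₂c, hs₃o]
  have hgo : g • o = c := by rw [hg, mul_smul, mul_smul, hs₁o, hs₂d, hs₃d]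
  have hgi : g⁻¹ • c = o ∧ g⁻¹ • o = c :=
    ⟨by rw [inv_smul_eq_iff, hgo], by rw [inv_smul_eq_iff, hgc]⟩
  obtain ⟨hzc2, hzo2⟩ := (hset z).1 (hB.1 hzB)
  set z' := g * z * g⁻¹ with hz'def
  have hz'S : z' ∈ stabilizer G a ⊓ stabilizer G b := by
    rw [hset, hz'def, mul_smul, mul_smul, hgi.1, hzo2, hgo, mul_smul, mul_smul, hgi.2, hzc2, hgc]
    exact ⟨rfl, rfl⟩
  have hz'2 : z' * z' = 1 := by
    rw [hz'def, show g * z * g⁻¹ * (g * z * g⁻¹) = g * (z * z) * g⁻¹ by group, hz2]; group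
  have hz'cen : z' ∈ D.cenG o := hgc ▸ D.conj_mem_cenG g hzc'
  have hz'1 : z' ≠ 1 := fun e => hz1 (by
    rw [hz'def, mul_inv_eq_one] at e
    exact mul_eq_left.1 e)
  obtain ⟨k, hk, hkB⟩ := hB.exists_conj
    (show Subgroup.zpowers z' ≤ stabilizer G a ⊓ stabilizer G b by rwa [Subgroup.zpowers_le])
    (pgroup_zpowers_of_orderOf (k := 1) (by rw [pow_one]; exact orderOf_eq_prime (by rw [sq, hz'2]) hz'1))
  set w := k * z' * k⁻¹ with hw
  have hwB : w ∈ B := hkB z' (Subgroup.mem_zpowers z')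
  have hwo : w ∈ D.cenG o := ((hset k).1 hk).2 ▸ D.conj_mem_cenG k hz'cen
  have hw2 : w * w = 1 := by
    rw [hw, show k * z' * k⁻¹ * (k * z' * k⁻¹) = k * (z' * z') * k⁻¹ by group, hz'2]; group
  have hw1 : w ≠ 1 := fun e => hz'1 (by rw [hw, mul_inv_eq_one] at e; exact mul_eq_left.1 e)
  have hcomm : z * w = w * z := by
    have h := Subgroup.mem_center_iff.1 hzc ⟨w, hwB⟩
    exact (congrArg Subtype.val h).symm
  -- their product fixes `c` and `o` but has the wrong centre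
  have hp1 : z * w ≠ 1 := fun e => hco (D.centre_unique hz1 hzc' (by
    rw [mul_eq_one_iff_eq_inv.1 e]; exact (D.cenG o).inv_mem hwo))
  have hp2 : (z * w) * (z * w) = 1 := by
    rw [show z * w * (z * w) = z * (w * z) * w by group, ← hcomm,
      show z * (z * w) * w = (z * z) * (w * w) by group, hz2, hw2, one_mul]
  have hpc := (hset (z * w)).1 ((stabilizer G a ⊓ stabilizer G b).mul_mem (hB.1 hzB) (hB.1 hwB))
  rcases (hfix (z * w) c o hco hc' ho' hp2 hp1 hpc.1 hpc.2).1 with h | h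
  · refine hco (D.centre_unique hw1 ?_ hwo)
    have := (D.cenG c).mul_mem ((D.cenG c).inv_mem hzc') h
    rwa [inv_mul_cancel_left] at this
  · refine hco (D.centre_unique hz1 hzc' ?_)
    have := (D.cenG o).mul_mem h ((D.cenG o).inv_mem hwo)
    rwa [mul_inv_cancel_right] at this

theorem odd_every_centre (hodd : Odd D.n) (hR : D.Rich) (p : P) :
    ∃ g N, D.InvP g N ∧ g ∈ D.cenG p := by
  obtain ⟨g, hg⟩ := D.dual.odd_every_axis hodd hR.dual p
  obtain ⟨N, hN⟩ := D.dual.exists_centre hg.2.2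
  exact ⟨g, N, ⟨hg.1, hg.2.1, hN⟩, hg.2.2⟩

/-- Two elations with a common centre and different axes make the order a prime power. -/
theorem odd_prime_pow_of_el (hodd : Odd D.n) (hR : D.Rich) {c : P} {M M' : L} {x y : G}
    (hMM : M ≠ M') (hcM : D.inc c M) (hcM' : D.inc c M') (hx : x ∈ D.pcl c M)
    (hy : y ∈ D.pcl c M') (hx1 : x ≠ 1) (hy1 : y ≠ 1) : IsPrimePow D.n := by
  obtain ⟨hcomm, p, hp, hexp⟩ := D.elC_elementary hMM hcM hcM' hx hy hx1 hy1
  have hp2 : p ≠ 2 := by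
    intro e
    subst e
    have h := (orderOf_dvd_of_mem hx).trans (D.card_pcl_dvd_of_inc hcM)
    rw [orderOf_eq_prime (hexp x ⟨M, hcM, hx⟩) hx1] at h
    exact Nat.not_even_iff_odd.2 hodd (even_iff_two_dvd.2 h)
  have hne : ∀ N, D.inc c N → ∃ z ∈ D.elC c, z ∉ D.pcl c N := by
    intro N _
    by_cases h : x ∈ D.pcl c N
    · refine ⟨y, ⟨M', hcM', hy⟩, fun h' => hMM ?_⟩
      rw [D.axis_unique hx1 hx.2 h.2, D.axis_unique hy1 hy.2 h'.2]
    · exact ⟨x, ⟨M, hcM, hx⟩, h⟩
  have hpart : ∀ N ∈ D.lnsF c, ∃ K ∈ D.lnsF c, K ≠ N ∧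
      Nat.card (D.pcl c N) * Nat.card (D.pcl c K) = Nat.card (D.elC c) := by
    intro N hN
    rw [mem_lnsF] at hN
    obtain ⟨h, hh⟩ := D.odd_every_axis hodd hR N
    obtain ⟨k, hk⟩ := D.exists_centre hh.2.2
    have hkN := D.not_inc_of_odd hodd hh hk
    have hck : c ≠ k := fun e => hkN (e ▸ hN)
    obtain ⟨hcK, hkK⟩ := D.line_spec hck
    generalize D.line c k hck = K at hcK hkK
    have hKN : K ≠ N := fun e => hkN (e ▸ hkK)
    refine ⟨K, D.mem_lnsF.2 hcK, hKN, le_antisymm (D.card_mul_le hN hcK hKN.symm) ?_⟩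
    -- conjugation by `h`
    have hhc : h • c = c := hh.2.2 c hN
    have hconj : ∀ e ∈ D.elC c, h * e * h⁻¹ ∈ D.elC c := by
      rintro e ⟨A, hA, he⟩
      exact ⟨h • A, by rw [← hhc]; exact (D.inc_smul h c A).2 hA,
        by have := D.conj_mem_pcl h he; rwa [hhc] at this⟩
    let Z : Subgroup G :=
      { carrier := {g | ∃ a ∈ D.pcl c N, ∃ b ∈ D.pcl c K, g = a * b}
        one_mem' := ⟨1, Subgroup.one_mem _, 1, Subgroup.one_mem _, (mul_one 1).symm⟩
        mul_mem' := by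
          rintro _ _ ⟨a, ha, b, hb, rfl⟩ ⟨a', ha', b', hb', rfl⟩
          refine ⟨a * a', (D.pcl c N).mul_mem ha ha', b * b', (D.pcl c K).mul_mem hb hb', ?_⟩
          have := hcomm b ⟨K, hcK, hb⟩ a' ⟨N, hN, ha'⟩
          rw [mul_assoc, ← mul_assoc b, this, mul_assoc a', ← mul_assoc]
        inv_mem' := by
          rintro _ ⟨a, ha, b, hb, rfl⟩
          refine ⟨a⁻¹, (D.pcl c N).inv_mem ha, b⁻¹, (D.pcl c K).inv_mem hb, ?_⟩
          rw [_root_.mul_inv_rev]
          exact hcomm _ ⟨K, hcK, (D.pcl c K).inv_mem hb⟩ _ ⟨N, hN, (D.pcl c N).inv_mem ha⟩ }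
    have hfixZ : ∀ e ∈ D.elC c, (h * e * h⁻¹ = e ∨ h * e * h⁻¹ = e⁻¹) → e ∈ Z := by
      rintro e ⟨A, hA, he⟩ hor
      by_cases he1 : e = 1
      · rw [he1]; exact Z.one_mem
      have hhA : h • A = A := by
        refine D.axis_unique he1 ?_ he.2
        have h1 := D.conj_mem_axG h he.2
        rcases hor with e' | e'
        · rwa [e'] at h1
        · rw [e'] at h1
          have h2 := (D.axG (h • A)).inv_mem h1
          rwa [inv_inv] at h2
      rcases (D.fix_pcl_line (show h ∈ D.pcl k N from ⟨hk, hh.2.2⟩) hh.2.1).1 hhA with h1 | h1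
      · rw [D.eq_line hck hA h1 hcK hkK] at he
        exact ⟨1, Subgroup.one_mem _, e, he, (one_mul e).symm⟩
      · rw [h1] at he
        exact ⟨e, he, 1, Subgroup.one_mem _, (mul_one e).symm⟩
    have hall : D.elC c ≤ Z := by
      intro e he
      set f := h * e * h⁻¹ with hf
      have hfE := hconj e he
      have hf2 : h * f * h⁻¹ = e := by
        rw [hf, show h * (h * e * h⁻¹) * h⁻¹ = (h * h) * e * (h * h)⁻¹ by group, hh.1]; group
      have hu : e * f ∈ Z := hfixZ _ ((D.elC c).mul_mem he hfE) (Or.inl (by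
        rw [show h * (e * f) * h⁻¹ = (h * e * h⁻¹) * (h * f * h⁻¹) by group, hf2, ← hf]
        exact hcomm f hfE e he))
      have hv : e * f⁻¹ ∈ Z := hfixZ _ ((D.elC c).mul_mem he ((D.elC c).inv_mem hfE)) (Or.inr (by
        rw [show h * (e * f⁻¹) * h⁻¹ = (h * e * h⁻¹) * (h * f * h⁻¹)⁻¹ by group, hf2, ← hf]
        group))
      have h2 : e ^ 2 ∈ Z := by
        have h3 := Z.mul_mem hu hv
        rwa [show e * f * (e * f⁻¹) = e * (f * e) * f⁻¹ by group, ← hcomm e he f hfE,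
          show e * (e * f) * f⁻¹ = e ^ 2 by rw [sq]; group] at h3
      obtain ⟨j, hj⟩ := hp.odd_of_ne_two hp2
      have h4 : (e ^ 2) ^ (j + 1) = e := by
        rw [← pow_mul, show 2 * (j + 1) = p + 1 by omega, pow_succ, hexp e he, one_mul]
      exact h4 ▸ Z.pow_mem h2 _
    rw [← Nat.card_prod]
    refine Nat.card_le_card_of_surjective
      (fun z : D.pcl c N × D.pcl c K =>
        (⟨z.1 * z.2, (D.elC c).mul_mem ⟨N, hN, z.1.2⟩ ⟨K, hcK, z.2.2⟩⟩ : D.elC c))
      fun e => ?_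
    obtain ⟨a, ha, b, hb, he⟩ := hall e.2
    exact ⟨(⟨a, ha⟩, ⟨b, hb⟩), Subtype.ext he.symm⟩
  obtain ⟨N, hN, hcard⟩ := order_eq_of_partition (D.lnsF c) (fun N => Nat.card (D.pcl c N))
    (Nat.card (D.elC c)) D.n (D.card_lnsF c) (fun N _ => Nat.card_pos) (D.card_elC c)
    (fun A hA B hB hAB => D.card_mul_le (D.mem_lnsF.1 hA) (D.mem_lnsF.1 hB) hAB) hpart
    ⟨M, D.mem_lnsF.2 hcM, M', D.mem_lnsF.2 hcM', hMM, by
      haveI : Nontrivial (D.pcl c M) := ⟨⟨⟨x, hx⟩, 1, fun e => hx1 (congrArg Subtype.val e)⟩⟩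
      exact Finite.one_lt_card, by
      haveI : Nontrivial (D.pcl c M') := ⟨⟨⟨y, hy⟩, 1, fun e => hy1 (congrArg Subtype.val e)⟩⟩
      exact Finite.one_lt_card⟩
  obtain ⟨i, hi⟩ := D.card_pcl_prime_pow hp hexp (D.pcl_le_elC (D.mem_lnsF.1 hN))
  rw [hcard] at hi
  have hn := D.two_le
  refine (isPrimePow_nat_iff _).2 ⟨p, i, hp, Nat.pos_of_ne_zero fun e => ?_, hi.symm⟩
  rw [e, pow_zero] at hi
  omega

/-- Two involutions with a common centre and different axes make the order a prime power. -/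
theorem odd_prime_pow_of_axes (hodd : Odd D.n) (hR : D.Rich) {c : P} {l l' : L} {h h' : G}
    (hll : l ≠ l') (hh : D.InvP h l) (hh' : D.InvP h' l') (hc : h ∈ D.cenG c)
    (hc' : h' ∈ D.cenG c) : IsPrimePow D.n := by
  obtain ⟨g, M₀, hg1, hcM, hg, -⟩ := D.exists_elation_of_two_axes hodd hll hh hh' hc hc'
  by_cases hE : ∃ M y, M ≠ M₀ ∧ D.inc c M ∧ y ∈ D.pcl c M ∧ y ≠ 1
  · obtain ⟨M, y, hMM, hM, hy, hy1⟩ := hE
    exact D.odd_prime_pow_of_el hodd hR hMM.symm hcM hM hg hy hg1 hy1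
  push Not at hE
  have hcl : ¬ D.inc c l := D.not_inc_of_odd hodd hh hc
  have hMl : M₀ ≠ l := fun e => hcl (e ▸ hcM)
  obtain ⟨t, htM, htl⟩ := D.meet M₀ l hMl
  have hct : c ≠ t := fun e => hcl (e ▸ htl)
  have hall : ∀ N, D.inc c N → N ≠ M₀ → ∃ x, D.InvP x N ∧ x ∈ D.cenG t := by
    intro N hN hNM
    obtain ⟨x, hx⟩ := D.odd_every_axis hodd hR N
    obtain ⟨k, hk⟩ := D.exists_centre hx.2.2
    have hkN := D.not_inc_of_odd hodd hx hk
    have hon : ∀ (x' : G) (k' : P), D.InvP x' N → x' ∈ D.cenG k' → D.inc k' M₀ := by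
      intro x' k' hx' hk'
      have h1 : x' * g * x'⁻¹ ∈ D.pcl c (x' • M₀) := by
        have := D.conj_mem_pcl x' hg
        rwa [hx'.2.2 c hN] at this
      have h2 : x' • M₀ = M₀ := by
        by_contra h3
        have h4 := hE _ _ h3 (by rw [← hx'.2.2 c hN]; exact (D.inc_smul x' c M₀).2 hcM) h1
        exact hg1 (mul_eq_left.1 (mul_inv_eq_one.1 h4))
      exact ((D.fix_pcl_line (show x' ∈ D.pcl k' N from ⟨hk', hx'.2.2⟩) hx'.2.1).1
        h2).resolve_right hNM.symm
    have hkM := hon x k hx hk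
    -- the centre is fixed by `h`
    have hx' : D.InvP (h * x * h⁻¹) N := by
      refine ⟨?_, fun e => hx.2.1 (mul_eq_left.1 (mul_inv_eq_one.1 e)),
        hc N hN ▸ D.conj_mem_axG h hx.2.2⟩
      rw [show h * x * h⁻¹ * (h * x * h⁻¹) = h * (x * x) * h⁻¹ by group, hx.1]; group
    have hhk : h • k = k := by
      by_contra hne
      obtain ⟨e, p, he1, hpN, he, hpall⟩ := D.dual.exists_elation_of_two_axes hodd
        (c := N) (l := h • k) (l' := k) hne
        (h := h * x * h⁻¹) (h' := x) ⟨hx'.1, hx'.2.1, D.conj_mem_cenG h hk⟩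
        ⟨hx.1, hx.2.1, hk⟩ hx'.2.2 hx.2.2
      have hpM : D.inc p M₀ := hpall M₀ (hon _ _ hx' (D.conj_mem_cenG h hk)) hkM
      have hpc : p = c := D.eq_point hNM hpN hN hpM hcM
      rw [hpc] at he
      exact he1 (hE N e hNM hN (by rwa [dual_pcl] at he))
    rcases (D.fix_pcl (show h ∈ D.pcl c l from ⟨hc, hh.2.2⟩) hh.2.1).1 hhk with h1 | h1
    · exact ⟨x, hx, D.eq_point hMl hkM htM h1 htl ▸ hk⟩
    · exact absurd (h1 ▸ hN) hkN
  obtain ⟨N, hN, hNM⟩ := D.exists_line_ne c M₀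
  obtain ⟨N', hN', hN'M, hN'N⟩ := D.exists_line_ne₂ c M₀ N
  obtain ⟨x, hx, hxt⟩ := hall N hN hNM
  obtain ⟨x', hx', hx't⟩ := hall N' hN' hN'M
  obtain ⟨e, M, he1, htM', he, hMall⟩ :=
    D.exists_elation_of_two_axes hodd hN'N.symm hx hx' hxt hx't
  have hMM : M = M₀ := D.eq_line hct (hMall c hN hN') htM' hcM htM
  subst hMM
  exact D.dual.odd_prime_pow_of_el hodd hR.dual (c := M) (M := c) (M' := t) hct hcM htM
    (by rwa [dual_pcl]) (by rwa [dual_pcl]) hg1 he1

/-- The incidence matrix of a polarity without absolute points does not exist. -/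
theorem no_polarity (π : P ≃ L) (hsym : ∀ b c, D.inc b (π c) → D.inc c (π b))
    (habs : ∀ c, ¬ D.inc c (π c)) [Nonempty P] : False := by
  have hn := D.two_le
  set p := D.n.minFac with hpdef
  haveI : Fact p.Prime := ⟨Nat.minFac_prime (by omega)⟩
  have hn0 : (D.n : ZMod p) = 0 := (ZMod.natCast_eq_zero_iff _ _).2 (Nat.minFac_dvd _)
  let A : Matrix P P (ZMod p) := Matrix.of fun b c => if D.inc b (π c) then 1 else 0
  let J : Matrix P P (ZMod p) := Matrix.of fun _ _ => 1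
  have hrow : ∀ b, #{c | D.inc b (π c)} = D.n + 1 := fun b => by
    rw [← D.card_lnsF b]
    exact Finset.card_equiv π fun c => by simp
  have hAA : A * A = J := by
    ext x y
    simp only [A, J, Matrix.mul_apply, Matrix.of_apply]
    rw [show (∑ z, (if D.inc x (π z) then (1 : ZMod p) else 0) * if D.inc z (π y) then 1 else 0)
      = (#{z | D.inc x (π z) ∧ D.inc y (π z)} : ℕ) by
        rw [Finset.natCast_card_filter]
        refine Finset.sum_congr rfl fun z _ => ?_
        have : D.inc z (π y) ↔ D.inc y (π z) := ⟨hsym z y, hsym y z⟩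
        split_ifs <;> simp_all]
    by_cases hxy : x = y
    · subst hxy
      simp only [and_self]
      rw [hrow, Nat.cast_succ, hn0, zero_add]
    · rw [show #{z | D.inc x (π z) ∧ D.inc y (π z)} = 1 from Finset.card_eq_one.2
        ⟨π.symm (D.line x y hxy), by
          ext z
          simp only [Finset.mem_filter, Finset.mem_univ, true_and, Finset.mem_singleton]
          rw [Equiv.eq_symm_apply]
          exact ⟨fun h => (D.line_eq hxy h.1 h.2).symm, fun h => h ▸ D.line_spec hxy⟩⟩, Nat.cast_one]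
  have hAJ : A * J = J := by
    ext x y
    simp only [A, J, Matrix.mul_apply, Matrix.of_apply, mul_one]
    rw [← Finset.natCast_card_filter, hrow, Nat.cast_succ, hn0, zero_add]
  have hv : (Fintype.card P : ZMod p) = 1 := by
    rw [D.card_points]
    push_cast
    rw [hn0]
    ring
  have hJJ : J * J = J := by
    ext x y
    simp [J, Matrix.mul_apply, Finset.card_univ, hv]
  have hpow : ∀ j : ℕ, A ^ (j + 2) = J := by
    intro j
    induction j with
    | zero => rw [sq, hAA]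
    | succ j ih => rw [show j + 1 + 2 = (j + 2) + 1 by omega, pow_succ', ih, hAJ]
  have h2 := (Fact.out : p.Prime).two_le
  have htr := ZMod.trace_pow_card (p := p) A
  have hAp := hpow (p - 2)
  rw [show p - 2 + 2 = p by omega] at hAp
  rw [hAp] at htr
  have hA0 : Matrix.trace A = 0 := by
    simp only [Matrix.trace, Matrix.diag, A, Matrix.of_apply, if_neg (habs _), Finset.sum_const_zero]
  rw [hA0, zero_pow (by omega)] at htr
  simp only [Matrix.trace, Matrix.diag, J, Matrix.of_apply, Finset.sum_const, Finset.card_univ,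
    nsmul_eq_mul, mul_one, hv] at htr
  exact one_ne_zero htr

theorem odd_prime_pow [Nonempty P] (hodd : Odd D.n) (hR : D.Rich) : IsPrimePow D.n := by
  have hax := D.odd_every_axis hodd hR
  choose σ hσ using hax
  choose κ hκ using fun l => D.exists_centre (hσ l).2.2
  by_cases h1 : ∃ (c : P) (l l' : L) (h h' : G),
      l ≠ l' ∧ D.InvP h l ∧ D.InvP h' l' ∧ h ∈ D.cenG c ∧ h' ∈ D.cenG c
  · obtain ⟨c, l, l', h, h', hll, hh, hh', hc, hc'⟩ := h1
    exact D.odd_prime_pow_of_axes hodd hR hll hh hh' hc hc'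
  by_cases h2 : ∃ (c c' : P) (l : L) (h h' : G),
      c ≠ c' ∧ D.InvP h l ∧ D.InvP h' l ∧ h ∈ D.cenG c ∧ h' ∈ D.cenG c'
  · obtain ⟨c, c', l, h, h', hcc, hh, hh', hc, hc'⟩ := h2
    exact D.dual.odd_prime_pow_of_axes hodd hR.dual (c := l) (l := c) (l' := c') hcc
      ⟨hh.1, hh.2.1, hc⟩ ⟨hh'.1, hh'.2.1, hc'⟩ hh.2.2 hh'.2.2
  push Not at h1 h2
  have hbij : Function.Bijective κ := by
    have hinj : Function.Injective κ := fun a b e => by
      by_contra hne
      exact h1 (κ a) a b (σ a) (σ b) hne (hσ a) (hσ b) (hκ a) (e ▸ hκ b)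
    exact (Fintype.bijective_iff_injective_and_card κ).2 ⟨hinj, D.card_lines_eq⟩
  let π : P ≃ L := (Equiv.ofBijective κ hbij).symm
  have hπ : ∀ l, π (κ l) = l := fun l => (Equiv.ofBijective κ hbij).symm_apply_apply l
  refine (D.no_polarity π (fun b c hbc => ?_) fun c hc => ?_).elim
  · obtain ⟨lb, rfl⟩ := hbij.2 b
    obtain ⟨lc, rfl⟩ := hbij.2 c
    rw [hπ] at hbc ⊢
    have hfix : σ lc • κ lb = κ lb := (hσ lc).2.2 _ hbc
    have hax' : σ lc • lb = lb := by
      by_contra hne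
      refine h1 (κ lb) (σ lc • lb) lb (σ lc * σ lb * (σ lc)⁻¹) (σ lb) hne ?_ (hσ lb) ?_ (hκ lb)
      · refine ⟨?_, fun e => (hσ lb).2.1 (mul_eq_left.1 (mul_inv_eq_one.1 e)),
          D.conj_mem_axG _ (hσ lb).2.2⟩
        rw [show σ lc * σ lb * (σ lc)⁻¹ * (σ lc * σ lb * (σ lc)⁻¹)
          = σ lc * (σ lb * σ lb) * (σ lc)⁻¹ by group, (hσ lb).1]
        group
      · exact hfix ▸ D.conj_mem_cenG _ (hκ lb)
    rcases (D.fix_pcl_line (show σ lc ∈ D.pcl (κ lc) lc from ⟨hκ lc, (hσ lc).2.2⟩)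
      (hσ lc).2.1).1 hax' with h | h
    · exact h
    · subst h
      exact absurd hbc (D.not_inc_of_odd hodd (hσ _) (hκ _))
  · obtain ⟨lc, rfl⟩ := hbij.2 c
    rw [hπ] at hc
    exact D.not_inc_of_odd hodd (hσ _) (hκ _) hc

end Pln

end CfsgLib.OstromWagner98
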