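import Mathlib
import Cfsg.Agent.OstromWagner98.Odd

/-!
A plane of even order in which any two points, and any two lines, are fixed by an involution, all
involutions being elations, has order a power of two.
-/

set_option autoImplicit false
set_option linter.unusedSectionVars false
set_option linter.style.haveILetI false

namespace CfsgLib.OstromWagner98

open MulAction Finset
open scoped Classical

variable {G P L : Type} [Group G] [MulAction G P] [MulAction G L] [Fintype P] [Fintype L]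
  [Finite G]

namespace Pln

variable (D : Pln G P L)

/-- The line `N` is the axis of two involutions with different centres. -/
def TwoCen (N : L) : Prop :=
  ∃ (x y : G) (c c' : P), c ≠ c' ∧ D.InvP x N ∧ x ∈ D.cenG c ∧ D.InvP y N ∧ y ∈ D.cenG c'

theorem even_every_axis (heven : Even D.n) (hR : D.Rich) (l : L) : ∃ g, D.InvP g l := by
  haveI : Nonempty P := ⟨(D.exists_not_inc l).choose⟩
  obtain ⟨a, ha, -⟩ := D.exists_inc_ne l (Classical.arbitrary P)
  obtain ⟨b, hb, hba⟩ := D.exists_inc_ne l a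
  obtain ⟨g, h2, h1, hga, hgb⟩ := hR.pair_point a b hba.symm
  obtain ⟨k, N, hN, hk⟩ := hR.exists_invP h2 h1
  have hkN := D.inc_of_even heven hN hk
  have hon : ∀ y, g • y = y → D.inc y N := fun y hy => by
    rcases (D.fix_pcl (show g ∈ D.pcl k N from ⟨hk, hN.2.2⟩) h1).1 hy with h | h
    · exact h
    · exact h ▸ hkN
  exact ⟨g, D.eq_line hba.symm (hon a hga) (hon b hgb) ha hb ▸ hN⟩

/-- Two lines through a point with involutory elations centred elsewhere are conjugate in the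
stabiliser of the point. -/
theorem even_conj_lines (heven : Even D.n) {a : P} {N M : L} (hN : D.inc a N) (hM : D.inc a M)
    (hxN : ∃ x k, D.InvP x N ∧ x ∈ D.cenG k ∧ k ≠ a)
    (hxM : ∃ x k, D.InvP x M ∧ x ∈ D.cenG k ∧ k ≠ a) :
    ∃ s : G, s • a = a ∧ s • N = M := by
  obtain ⟨s, hs, hsN⟩ := trans_of_involutions (stabilizer G a)
    ({K ∈ D.lnsF a | ∃ x k, D.InvP x K ∧ x ∈ D.cenG k ∧ k ≠ a}) (by
      intro s hs K hK
      simp only [Finset.mem_filter, mem_lnsF] at hK ⊢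
      have hsa : s • a = a := hs
      refine ⟨by rw [← hsa]; exact (D.inc_smul s a K).2 hK.1, ?_⟩
      obtain ⟨x, k, hx, hk, hka⟩ := hK.2
      refine ⟨s * x * s⁻¹, s • k, ⟨?_, fun e => hx.2.1 (mul_eq_left.1 (mul_inv_eq_one.1 e)),
        D.conj_mem_axG s hx.2.2⟩, D.conj_mem_cenG s hk, fun e => hka ?_⟩
      · rw [show s * x * s⁻¹ * (s * x * s⁻¹) = s * (x * x) * s⁻¹ by group, hx.1]; group
      · rw [← hsa] at e
        exact smul_left_cancel _ e)
    (by
      intro K hK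
      simp only [Finset.mem_filter, mem_lnsF] at hK
      obtain ⟨x, k, hx, hk, hka⟩ := hK.2
      refine ⟨x, hx.2.2 a hK.1, hx.1, fun J hJ => ?_⟩
      simp only [Finset.mem_filter, mem_lnsF] at hJ
      rw [D.fix_pcl_line (show x ∈ D.pcl k K from ⟨hk, hx.2.2⟩) hx.2.1]
      refine ⟨fun h => h.elim (fun h => ?_) id, fun h => Or.inr h⟩
      exact D.eq_line hka h hJ.1 (D.inc_of_even heven hx hk) hK.1)
    N (by simp only [Finset.mem_filter, mem_lnsF]; exact ⟨hN, hxN⟩)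
    M (by simp only [Finset.mem_filter, mem_lnsF]; exact ⟨hM, hxM⟩)
  exact ⟨s, hs, hsN⟩

theorem TwoCen.smul {D : Pln G P L} {N : L} (h : D.TwoCen N) (s : G) : D.TwoCen (s • N) := by
  obtain ⟨x, y, c, c', hcc, hx, hxc, hy, hyc⟩ := h
  have key : ∀ z : G, D.InvP z N → D.InvP (s * z * s⁻¹) (s • N) := fun z hz =>
    ⟨by rw [show s * z * s⁻¹ * (s * z * s⁻¹) = s * (z * z) * s⁻¹ by group, hz.1]; group,
      fun e => hz.2.1 (mul_eq_left.1 (mul_inv_eq_one.1 e)), D.conj_mem_axG s hz.2.2⟩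
  exact ⟨_, _, s • c, s • c', fun e => hcc (smul_left_cancel _ e), key x hx,
    D.conj_mem_cenG s hxc, key y hy, D.conj_mem_cenG s hyc⟩

theorem TwoCen.exists_centre_ne {D : Pln G P L} {N : L} (h : D.TwoCen N) (a : P) :
    ∃ x k, D.InvP x N ∧ x ∈ D.cenG k ∧ k ≠ a := by
  obtain ⟨x, y, c, c', hcc, hx, hxc, hy, hyc⟩ := h
  by_cases h : c = a
  · exact ⟨y, c', hy, hyc, fun e => hcc (h.trans e.symm)⟩
  · exact ⟨x, c, hx, hxc, h⟩

theorem even_every_centre (heven : Even D.n) (hR : D.Rich) (p : P) :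
    ∃ g N, D.InvP g N ∧ g ∈ D.cenG p := by
  obtain ⟨g, hg⟩ := D.dual.even_every_axis heven hR.dual p
  obtain ⟨N, hN⟩ := D.dual.exists_centre hg.2.2
  exact ⟨g, N, ⟨hg.1, hg.2.1, hN⟩, hg.2.2⟩

theorem even_all_twoCen [Nonempty P] (heven : Even D.n) (hR : D.Rich) (N : L) : D.TwoCen N := by
  have hax := D.even_every_axis heven hR
  choose σ hσ using hax
  choose κ hκ using fun l => D.exists_centre (hσ l).2.2
  have hinc : ∀ l, D.inc (κ l) l := fun l => D.inc_of_even heven (hσ l) (hκ l)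
  -- unique centres
  have huniq : ∀ M, ¬ D.TwoCen M → ∀ x k, D.InvP x M → x ∈ D.cenG k → k = κ M :=
    fun M hM x k hx hk => by_contra fun hne => hM ⟨x, σ M, k, κ M, hne, hx, hk, hσ M, hκ M⟩
  obtain ⟨N₀, hN₀⟩ : ∃ N, D.TwoCen N := by
    by_contra hnone
    push Not at hnone
    have hbij : Function.Bijective κ := by
      refine (Fintype.bijective_iff_surjective_and_card κ).2 ⟨fun p => ?_, D.card_lines_eq⟩
      obtain ⟨g, M, hg, hgp⟩ := D.even_every_centre heven hR p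
      exact ⟨M, (huniq M (hnone M) g p hg hgp).symm⟩
    obtain ⟨l⟩ := D.nonempty_line (Classical.arbitrary P)
    obtain ⟨b, hb, hbne⟩ := D.exists_inc_ne l (κ l)
    obtain ⟨lb, rfl⟩ := hbij.2 b
    have hne : lb ≠ l := fun e => hbne (by rw [e])
    have hfix : σ l • κ lb = κ lb := (hσ l).2.2 _ hb
    have hlb : σ l • lb = lb := by
      have h1 : D.InvP (σ l * σ lb * (σ l)⁻¹) (σ l • lb) :=
        ⟨by rw [show σ l * σ lb * (σ l)⁻¹ * (σ l * σ lb * (σ l)⁻¹)
            = σ l * (σ lb * σ lb) * (σ l)⁻¹ by group, (hσ lb).1]; group,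
          fun e => (hσ lb).2.1 (mul_eq_left.1 (mul_inv_eq_one.1 e)), D.conj_mem_axG _ (hσ lb).2.2⟩
      have h2 := huniq _ (hnone _) _ _ h1 (D.conj_mem_cenG _ (hκ lb))
      rw [hfix] at h2
      exact (hbij.1 h2).symm
    have h3 : D.inc (κ l) lb :=
      ((D.fix_pcl_line (show σ l ∈ D.pcl (κ l) l from ⟨hκ l, (hσ l).2.2⟩)
        (hσ l).2.1).1 hlb).resolve_right hne
    exact hne (D.eq_line hbne (hinc lb) h3 hb (hinc l))
  -- the centre of another line lies on every line with two centres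
  have hmeet : ∀ M, ¬ D.TwoCen M → ∀ N, D.TwoCen N → D.inc (κ M) N := by
    intro M hM N hN
    have hMN : N ≠ M := fun e => hM (e ▸ hN)
    obtain ⟨a, haN, haM⟩ := D.meet N M hMN
    by_contra hc
    obtain ⟨s, -, hs⟩ := D.even_conj_lines heven haN haM (hN.exists_centre_ne a)
      ⟨σ M, κ M, hσ M, hκ M, fun e => hc (e ▸ haN)⟩
    exact hM (hs ▸ hN.smul s)
  by_contra hN
  by_cases h2 : ∃ N₁, D.TwoCen N₁ ∧ N₁ ≠ N₀
  · obtain ⟨N₁, hN₁, hne⟩ := h2
    obtain ⟨a, ha₀, ha₁⟩ := D.meet N₀ N₁ hne.symm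
    have hcen : ∀ M, ¬ D.TwoCen M → κ M = a := fun M hM =>
      D.eq_point hne.symm (hmeet M hM N₀ hN₀) ha₀ (hmeet M hM N₁ hN₁) ha₁
    haveI : Nonempty L := ⟨N⟩
    obtain ⟨M₀, hM₀⟩ := D.exists_not_inc_line a
    have hM₀T : D.TwoCen M₀ := by_contra fun h => hM₀ (hcen M₀ h ▸ hinc M₀)
    exact hM₀ (hcen N hN ▸ hmeet N hN M₀ hM₀T)
  push Not at h2
  obtain ⟨x, hx⟩ := D.exists_not_inc N₀
  obtain ⟨g, M, hg, hgx⟩ := D.even_every_centre heven hR x
  have hMT : ¬ D.TwoCen M := fun h => hx (h2 M h ▸ D.inc_of_even heven hg hgx)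
  exact hx (huniq M hMT g x hg hgx ▸ hmeet M hMT N₀ hN₀)

/-- A plane of even order with involutory elations on all pairs has order a power of two. -/
theorem even_prime_pow [Nonempty P] (heven : Even D.n) (hR : D.Rich) : IsPrimePow D.n := by
  haveI : Nonempty L := D.nonempty_line (Classical.arbitrary P)
  haveI : Fact (Nat.Prime 2) := ⟨Nat.prime_two⟩
  have hT := D.even_all_twoCen heven hR
  obtain ⟨c⟩ := ‹Nonempty P›
  obtain ⟨x, y, M, M', hMM, hx, hxM, hy, hyM⟩ :=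
    D.dual.even_all_twoCen (P := L) (L := P) heven hR.dual c
  -- `x` and `y` are involutory elations with centre `c` and axes `M` and `M'`
  have hxI : D.InvP x M := ⟨hx.1, hx.2.1, hxM⟩
  have hyI : D.InvP y M' := ⟨hy.1, hy.2.1, hyM⟩
  have hcM : D.inc c M := D.inc_of_even heven hxI hx.2.2
  have hcM' : D.inc c M' := D.inc_of_even heven hyI hy.2.2
  obtain ⟨hcomm, p, hp, hexp⟩ := D.elC_elementary hMM hcM hcM'
    (show x ∈ D.pcl c M from ⟨hx.2.2, hxM⟩) (show y ∈ D.pcl c M' from ⟨hy.2.2, hyM⟩) hx.2.1 hy.2.1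
  have hp2 : p = 2 := by
    rw [← hxI.orderOf_eq]
    exact (orderOf_eq_prime (hp := ⟨hp⟩) (hexp x ⟨M, hcM, hx.2.2, hxM⟩) hx.2.1).symm
  subst hp2
  -- all components have the same order
  have hconj : ∀ A B, D.inc c A → D.inc c B →
      Nat.card (D.pcl c A) ≤ Nat.card (D.pcl c B) := by
    intro A B hA hB
    obtain ⟨s, hsc, hsA⟩ := D.even_conj_lines heven hA hB ((hT A).exists_centre_ne c)
      ((hT B).exists_centre_ne c)
    refine Nat.card_le_card_of_injective (fun z : D.pcl c A =>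
      (⟨s * z * s⁻¹, by have := D.conj_mem_pcl s z.2; rwa [hsc, hsA] at this⟩ : D.pcl c B))
      fun a b e => Subtype.ext (mul_left_cancel (mul_right_cancel (congrArg Subtype.val e)))
  have heq : ∀ A ∈ D.lnsF c, Nat.card (D.pcl c A) = Nat.card (D.pcl c M) := fun A hA =>
    le_antisymm (hconj _ _ (D.mem_lnsF.1 hA) hcM) (hconj _ _ hcM (D.mem_lnsF.1 hA))
  have hE := D.card_elC c
  rw [Finset.sum_congr rfl (fun A hA => by rw [heq A hA] :
      ∀ A ∈ D.lnsF c, Nat.card (D.pcl c A) - 1 = Nat.card (D.pcl c M) - 1),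
    Finset.sum_const, D.card_lnsF, smul_eq_mul] at hE
  have h2 : 2 ≤ Nat.card (D.pcl c M) := by
    haveI : Nontrivial (D.pcl c M) :=
      ⟨⟨⟨x, hx.2.2, hxM⟩, 1, fun e => hx.2.1 (congrArg Subtype.val e)⟩⟩
    exact Finite.one_lt_card
  -- the action on the other points of `M`
  letI : MulAction (D.elC c) {q // D.inc q M ∧ q ≠ c} :=
    { smul := fun g q => ⟨(g : G) • (q : P), by
        obtain ⟨A, hA, hg⟩ := g.2
        refine ⟨(D.inc_smul_of_fix (hg.1 M hcM)).2 q.2.1, fun e => q.2.2 ?_⟩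
        conv at e => rhs; rw [← D.smul_eq_of_mem_cenG hg.1]
        exact smul_left_cancel _ e⟩
      one_smul := fun q => Subtype.ext (one_smul G (q : P))
      mul_smul := fun g g' q => Subtype.ext (mul_smul (g : G) (g' : G) (q : P)) }
  let φ := MulAction.toPermHom (D.elC c) {q // D.inc q M ∧ q ≠ c}
  have hfix : ∀ (g : D.elC c) (q : {q // D.inc q M ∧ q ≠ c}), g • q = q → (g : G) ∈ D.pcl c M := by
    intro g q hq
    obtain ⟨A, hA, hg⟩ := g.2
    by_cases hg1 : (g : G) = 1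
    · rw [hg1]; exact Subgroup.one_mem _
    have hAM : A = M := by
      rcases (D.fix_pcl hg hg1).1 (congrArg Subtype.val hq) with h | h
      · exact D.eq_line q.2.2 h hA q.2.1 hcM
      · exact absurd h q.2.2
    exact hAM ▸ hg
  have hker : ∀ g : D.elC c, g ∈ φ.ker ↔ (g : G) ∈ D.pcl c M := by
    intro g
    rw [MonoidHom.mem_ker, Equiv.ext_iff]
    refine ⟨fun h => ?_, fun h q => Subtype.ext (h.2 _ q.2.1)⟩
    obtain ⟨q, hq, hqc⟩ := D.exists_inc_ne M c
    exact hfix g ⟨q, hq, hqc⟩ (h ⟨q, hq, hqc⟩)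
  have hkercard : Nat.card φ.ker = Nat.card (D.pcl c M) :=
    Nat.card_congr ⟨fun g => ⟨g.1.1, (hker g.1).1 g.2⟩,
      fun g => ⟨⟨g.1, M, hcM, g.2⟩, (hker _).2 g.2⟩, fun g => rfl, fun g => rfl⟩
  have hrdvd : Nat.card φ.range ∣ D.n := by
    have h : Nat.card {q // D.inc q M ∧ q ≠ c} = D.n := by
      rw [Nat.card_eq_fintype_card, Fintype.card_subtype,
        show ({q | D.inc q M ∧ q ≠ c} : Finset P) = (D.ptsF M).erase c by ext q; simp [and_comm],
        Finset.card_erase_of_mem (D.mem_ptsF.2 hcM), D.card_ptsF]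
      omega
    rw [← h]
    refine card_dvd_of_semireg (H := φ.range) ?_
    rintro ⟨_, g, rfl⟩ q hq
    exact Subtype.ext (MonoidHom.mem_ker.1 ((hker g).2 (hfix g q hq)))
  have hmul : Nat.card (D.elC c) = Nat.card φ.range * Nat.card (D.pcl c M) := by
    rw [← hkercard, Subgroup.card_eq_card_quotient_mul_card_subgroup φ.ker,
      Nat.card_congr (QuotientGroup.quotientKerEquivRange φ).toEquiv]
  -- arithmetic
  obtain ⟨a, o, ho, hn⟩ := Nat.exists_eq_two_pow_mul_odd (n := D.n) (by have := D.two_le; omega)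
  obtain ⟨i, hi⟩ := D.card_pcl_prime_pow hp hexp (D.pcl_le_elC hcM)
  obtain ⟨e, he⟩ := IsPGroup.iff_card.1 (show IsPGroup 2 (D.elC c) from
    fun g => ⟨1, Subtype.ext (by simpa using hexp g g.2)⟩)
  obtain ⟨j, -, hj⟩ := (Nat.dvd_prime_pow Nat.prime_two).1
    (show Nat.card φ.range ∣ 2 ^ e from he ▸ hmul ▸ dvd_mul_right _ _)
  have hcop : ∀ k, 2 ^ k ∣ D.n → 2 ^ k ≤ 2 ^ a := fun k hk =>
    Nat.le_of_dvd (Nat.two_pow_pos a)
      (((Nat.coprime_two_left.2 ho).pow_left k).dvd_of_dvd_mul_right (hn ▸ hk))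
  have hr2 : 2 ^ j ≤ 2 ^ a := hcop j (hj ▸ hrdvd)
  rw [hmul, hi, hj, hn] at hE
  rw [hi] at h2
  refine (isPrimePow_nat_iff _).2 ⟨2, a, Nat.prime_two, ?_, ?_⟩
  · rcases a with _ | a
    · have h1 := Nat.even_iff.1 heven
      have h2' := Nat.odd_iff.1 ho
      rw [hn, pow_zero, one_mul] at h1
      omega
    · omega
  · by_contra hne
    have ho3 : 3 ≤ o := by
      rcases ho with ⟨b, rfl⟩
      rcases b with _ | b
      · simp at hn; exact absurd hn.symm hne
      · omega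
    obtain ⟨t, ht⟩ : ∃ t, 2 ^ i = t + 1 := ⟨2 ^ i - 1, by omega⟩
    have h3 : 2 ^ a * 3 ≤ 2 ^ a * o := Nat.mul_le_mul_left _ ho3
    have h4 : (2 ^ a * 3 + 1) * t ≤ (2 ^ a * o + 1) * t := Nat.mul_le_mul_right _ (by omega)
    have h5 : 2 ^ j * (t + 1) ≤ 2 ^ a * (t + 1) := Nat.mul_le_mul_right _ hr2
    rw [ht, Nat.add_sub_cancel] at hE
    have h7 : 1 ≤ 2 ^ j * (t + 1) := Nat.mul_pos (Nat.two_pow_pos j) (by omega)
    have h8 : 2 ^ j * (t + 1) = (2 ^ a * o + 1) * t + 1 := by omega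
    have h6 := Nat.two_pow_pos a
    have h9 : 1 ≤ t := by omega
    nlinarith

end Pln

end CfsgLib.OstromWagner98
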