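import Mathlib
import Cfsg.Agent.OstromWagner98.Elation

/-!
Fixed subplanes, the induced group, Baer involutions.
-/

set_option autoImplicit false
set_option linter.unusedSectionVars false
set_option linter.style.haveILetI false

namespace CfsgLib.OstromWagner98

open MulAction Finset
open scoped Classical

/-- The fixed objects of a subgroup. -/
def Fx {G : Type} [Group G] (α : Type) [MulAction G α] (K : Subgroup G) : Type :=
  {x : α // ∀ k ∈ K, k • x = x}

noncomputable instance Fx.fintype {G : Type} [Group G] (α : Type) [MulAction G α] [Fintype α]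
    (K : Subgroup G) : Fintype (Fx α K) :=
  inferInstanceAs (Fintype {x : α // ∀ k ∈ K, k • x = x})

theorem Fx.smul_mem {G : Type} [Group G] {α : Type} [MulAction G α] {K : Subgroup G} {g : G}
    (hg : g ∈ Subgroup.normalizer (K : Set G)) (x : Fx α K) :
    ∀ k ∈ K, k • g • x.1 = g • x.1 := by
  intro k hk
  have hk' : g⁻¹ * k * g ∈ K := by
    have := (Subgroup.mem_normalizer_iff.1 ((Subgroup.normalizer (K : Set G)).inv_mem hg) k).1 hk
    rwa [inv_inv] at this
  have := x.2 _ hk'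
  rwa [mul_smul, mul_smul, inv_smul_eq_iff] at this

instance Fx.mulAction {G : Type} [Group G] (α : Type) [MulAction G α] (K : Subgroup G) :
    MulAction (Subgroup.normalizer (K : Set G)) (Fx α K) where
  smul g x := ⟨(g : G) • x.1, Fx.smul_mem g.2 x⟩
  one_smul x := Subtype.ext (one_smul G x.1)
  mul_smul g g' x := Subtype.ext (mul_smul (g : G) (g' : G) x.1)

@[simp] theorem Fx.smul_val {G : Type} [Group G] {α : Type} [MulAction G α] {K : Subgroup G}
    (g : Subgroup.normalizer (K : Set G)) (x : Fx α K) : (g • x).1 = (g : G) • x.1 := rfl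

section

variable {G P L : Type} [Group G] [MulAction G P] [MulAction G L]

/-- The action of the normaliser on the fixed substructure. -/
def fxHom (P L : Type) [MulAction G P] [MulAction G L] (K : Subgroup G) :
    Subgroup.normalizer (K : Set G) →* Equiv.Perm (Fx P K) × Equiv.Perm (Fx L K) :=
  (MulAction.toPermHom _ (Fx P K)).prod (MulAction.toPermHom _ (Fx L K))

/-- The group induced on the fixed substructure. -/
def FxG (P L : Type) [MulAction G P] [MulAction G L] (K : Subgroup G) : Type :=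
  (fxHom P L K).range

instance FxG.group (K : Subgroup G) : Group (FxG P L K) :=
  inferInstanceAs (Group (fxHom P L K).range)

instance FxG.finite [Finite G] (K : Subgroup G) : Finite (FxG P L K) :=
  Finite.of_surjective (fun g => (⟨fxHom P L K g, g, rfl⟩ : (fxHom P L K).range))
    (fun ⟨_, g, rfl⟩ => ⟨g, rfl⟩)

/-- An element of the normaliser as an induced collineation. -/
def toFxG (P L : Type) [MulAction G P] [MulAction G L] (K : Subgroup G) :
    Subgroup.normalizer (K : Set G) →* FxG P L K :=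
  (fxHom P L K).rangeRestrict

theorem toFxG_surjective (K : Subgroup G) : Function.Surjective (toFxG P L K) :=
  (fxHom P L K).rangeRestrict_surjective

instance FxG.actP (K : Subgroup G) : MulAction (FxG P L K) (Fx P K) :=
  MulAction.compHom _ ((MonoidHom.fst _ _).comp (fxHom P L K).range.subtype)

instance FxG.actL (K : Subgroup G) : MulAction (FxG P L K) (Fx L K) :=
  MulAction.compHom _ ((MonoidHom.snd _ _).comp (fxHom P L K).range.subtype)

@[simp] theorem toFxG_smul_P (K : Subgroup G) (g : Subgroup.normalizer (K : Set G))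
    (x : Fx P K) : toFxG P L K g • x = g • x := rfl

@[simp] theorem toFxG_smul_L (K : Subgroup G) (g : Subgroup.normalizer (K : Set G))
    (x : Fx L K) : toFxG P L K g • x = g • x := rfl

end

variable {G P L : Type} [Group G] [MulAction G P] [MulAction G L]

namespace Pln

variable (D : Pln G P L)

/-- Four points, no three of which are collinear. -/
def Frame (a b c d : P) : Prop :=
  ∀ l, ¬ (D.inc a l ∧ D.inc b l ∧ D.inc c l) ∧ ¬ (D.inc a l ∧ D.inc b l ∧ D.inc d l) ∧
    ¬ (D.inc a l ∧ D.inc c l ∧ D.inc d l) ∧ ¬ (D.inc b l ∧ D.inc c l ∧ D.inc d l)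

/-- A subgroup fixing a frame. -/
def Planar (K : Subgroup G) : Prop :=
  ∃ a b c d : P, D.Frame a b c d ∧ ∀ k ∈ K, k • a = a ∧ k • b = b ∧ k • c = c ∧ k • d = d

theorem Planar.anti {D : Pln G P L} {K K' : Subgroup G} (h : D.Planar K) (hle : K' ≤ K) :
    D.Planar K' := by
  obtain ⟨a, b, c, d, hf, hK⟩ := h
  exact ⟨a, b, c, d, hf, fun k hk => hK k (hle hk)⟩

variable [Fintype P] [Fintype L]

theorem exists_line_through (a b : P) : ∃ l, D.inc a l ∧ D.inc b l := by
  by_cases h : a = b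
  · subst h
    obtain ⟨l, hl⟩ := Finset.card_pos.1 (show 0 < #(D.lnsF a) by rw [D.card_lnsF]; omega)
    exact ⟨l, D.mem_lnsF.1 hl, D.mem_lnsF.1 hl⟩
  · exact D.join a b h

theorem Frame.ne {D : Pln G P L} {a b c d : P} (h : D.Frame a b c d) :
    a ≠ b ∧ a ≠ c ∧ a ≠ d ∧ b ≠ c ∧ b ≠ d ∧ c ≠ d := by
  refine ⟨fun e => ?_, fun e => ?_, fun e => ?_, fun e => ?_, fun e => ?_, fun e => ?_⟩ <;> subst e
  · obtain ⟨l, h1, h2⟩ := D.exists_line_through a c; exact (h l).1 ⟨h1, h1, h2⟩
  · obtain ⟨l, h1, h2⟩ := D.exists_line_through a b; exact (h l).1 ⟨h1, h2, h1⟩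
  · obtain ⟨l, h1, h2⟩ := D.exists_line_through a b; exact (h l).2.1 ⟨h1, h2, h1⟩
  · obtain ⟨l, h1, h2⟩ := D.exists_line_through a b; exact (h l).1 ⟨h1, h2, h2⟩
  · obtain ⟨l, h1, h2⟩ := D.exists_line_through a b; exact (h l).2.1 ⟨h1, h2, h2⟩
  · obtain ⟨l, h1, h2⟩ := D.exists_line_through a c; exact (h l).2.2.1 ⟨h1, h2, h2⟩

/-- The plane has a frame. -/
theorem exists_frame [Nonempty P] : ∃ a b c d : P, D.Frame a b c d := by
  haveI := D.nonempty_line (Classical.arbitrary P)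
  obtain ⟨l⟩ := ‹Nonempty L›
  obtain ⟨o, ho⟩ := D.exists_not_inc l
  obtain ⟨a, ha, -⟩ := D.exists_inc_ne l o
  obtain ⟨b, hb, hba⟩ := D.exists_inc_ne l a
  obtain ⟨e, he, hea, heb⟩ := D.exists_inc_ne₂ l a b
  have hoe : o ≠ e := fun h => ho (h ▸ he)
  obtain ⟨hom, hem⟩ := D.line_spec hoe
  generalize D.line o e hoe = m at hom hem
  obtain ⟨d, hd, hdo, hde⟩ := D.exists_inc_ne₂ m o e
  have hml : m ≠ l := fun h => ho (h ▸ hom)
  have hdl : ¬ D.inc d l := fun h => hde (D.eq_point hml hd hem h he)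
  refine ⟨a, b, o, d, fun k => ⟨?_, ?_, ?_, ?_⟩⟩ <;> rintro ⟨h1, h2, h3⟩
  · exact ho (D.eq_line hba.symm h1 h2 ha hb ▸ h3)
  · exact hdl (D.eq_line hba.symm h1 h2 ha hb ▸ h3)
  · have e1 := D.eq_line hdo h3 h2 hd hom
    subst e1
    exact hea (D.eq_point hml hem h1 he ha)
  · have e1 := D.eq_line hdo h3 h2 hd hom
    subst e1
    exact heb (D.eq_point hml hem h1 he hb)

theorem Planar.bot [Nonempty P] : D.Planar (⊥ : Subgroup G) := by
  obtain ⟨a, b, c, d, h⟩ := D.exists_frame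
  exact ⟨a, b, c, d, h, fun k hk => by
    rw [Subgroup.mem_bot] at hk; subst hk; simp⟩

theorem Planar.dual {D : Pln G P L} {K : Subgroup G} (h : D.Planar K) : D.dual.Planar K := by
  obtain ⟨a, b, c, d, hf, hK⟩ := h
  obtain ⟨hab, -, had, hbc, -, hcd⟩ := hf.ne
  refine ⟨D.line a b hab, D.line b c hbc, D.line c d hcd, D.line d a had.symm, ?_, fun k hk => ?_⟩
  · obtain ⟨a1, b1⟩ := D.line_spec hab
    obtain ⟨b2, c2⟩ := D.line_spec hbc
    obtain ⟨c3, d3⟩ := D.line_spec hcd
    obtain ⟨d4, a4⟩ := D.line_spec had.symm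
    generalize D.line a b hab = A at a1 b1
    generalize D.line b c hbc = B at b2 c2
    generalize D.line c d hcd = C at c3 d3
    generalize D.line d a had.symm = E at d4 a4
    have hAB : A ≠ B := fun e => (hf A).1 ⟨a1, b1, e ▸ c2⟩
    have hCE : C ≠ E := fun e => (hf C).2.2.1 ⟨e ▸ a4, c3, d3⟩
    intro p
    refine ⟨?_, ?_, ?_, ?_⟩ <;> rintro ⟨h1, h2, h3⟩
    · have e1 : p = b := D.eq_point hAB h1 b1 h2 b2
      subst e1
      exact (hf C).2.2.2 ⟨h3, c3, d3⟩
    · have e1 : p = b := D.eq_point hAB h1 b1 h2 b2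
      subst e1
      exact (hf E).2.1 ⟨a4, h3, d4⟩
    · have e1 : p = d := D.eq_point hCE h2 d3 h3 d4
      subst e1
      exact (hf A).2.1 ⟨a1, b1, h1⟩
    · have e1 : p = d := D.eq_point hCE h2 d3 h3 d4
      subst e1
      exact (hf B).2.2.2 ⟨b2, c2, h1⟩
  · obtain ⟨ha, hb, hc, hd⟩ := hK k hk
    exact ⟨D.smul_line_of_fix hab (D.line_spec hab).1 (D.line_spec hab).2 ha hb,
      D.smul_line_of_fix hbc (D.line_spec hbc).1 (D.line_spec hbc).2 hb hc,
      D.smul_line_of_fix hcd (D.line_spec hcd).1 (D.line_spec hcd).2 hc hd,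
      D.smul_line_of_fix had.symm (D.line_spec had.symm).1 (D.line_spec had.symm).2 hd ha⟩

theorem fx_join (K : Subgroup G) (x y : Fx P K) (h : x ≠ y) :
    ∃ l : Fx L K, D.inc x.1 l.1 ∧ D.inc y.1 l.1 := by
  have h' : x.1 ≠ y.1 := fun e => h (Subtype.ext e)
  obtain ⟨h1, h2⟩ := D.line_spec h'
  exact ⟨⟨_, fun k hk => D.smul_line_of_fix h' h1 h2 (x.2 k hk) (y.2 k hk)⟩, h1, h2⟩

theorem fx_meet (K : Subgroup G) (l m : Fx L K) (h : l ≠ m) :
    ∃ x : Fx P K, D.inc x.1 l.1 ∧ D.inc x.1 m.1 := by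
  have h' : l.1 ≠ m.1 := fun e => h (Subtype.ext e)
  obtain ⟨a, h1, h2⟩ := D.meet l.1 m.1 h'
  exact ⟨⟨a, fun k hk => D.smul_point_of_fix h' h1 h2 (l.2 k hk) (m.2 k hk)⟩, h1, h2⟩

/-- The plane of fixed elements. -/
theorem exists_sub {K : Subgroup G} (hK : D.Planar K) :
    ∃ S : Pln (FxG P L K) (Fx P K) (Fx L K), ∀ x l, S.inc x l ↔ D.inc x.1 l.1 := by
  obtain ⟨a, b, c, d, hf, hfix⟩ := hK
  let A : Fx P K := ⟨a, fun k hk => (hfix k hk).1⟩
  let B : Fx P K := ⟨b, fun k hk => (hfix k hk).2.1⟩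
  let C : Fx P K := ⟨c, fun k hk => (hfix k hk).2.2.1⟩
  let E : Fx P K := ⟨d, fun k hk => (hfix k hk).2.2.2⟩
  obtain ⟨-, -, had, hbc, hbd, hcd⟩ := hf.ne
  obtain ⟨lBC, hB2, hC2⟩ := D.fx_join K B C fun e => hbc (congrArg Subtype.val e)
  obtain ⟨lBE, hB3, hE3⟩ := D.fx_join K B E fun e => hbd (congrArg Subtype.val e)
  obtain ⟨lAE, hA1, hE1⟩ := D.fx_join K A E fun e => had (congrArg Subtype.val e)
  letI : Membership (Fx P K) (Fx L K) := ⟨fun l x => D.inc x.1 l.1⟩
  letI : Configuration.ProjectivePlane (Fx P K) (Fx L K) :=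
    { exists_point := fun l => by
        by_contra hc
        push Not at hc
        exact (hf l.1).1 ⟨hc A, hc B, hc C⟩
      exists_line := fun x => by
        by_contra hc
        push Not at hc
        by_cases hxb : x.1 = b
        · exact (hf lAE.1).2.1 ⟨hA1, hxb ▸ hc lAE, hE1⟩
        · exact (hf lBC.1).2.2.2 ⟨hB2, hC2, by
            have := D.eq_line hxb (hc lBC) hB2 (hc lBE) hB3
            rw [this]
            exact hE3⟩
      eq_or_eq := fun h1 h2 h3 h4 =>
        (D.eq_or h1 h2 h3 h4).imp (fun e => Subtype.ext e) fun e => Subtype.ext e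
      mkPoint := fun h => (D.fx_meet K _ _ h).choose
      mkPoint_ax := fun h => (D.fx_meet K _ _ h).choose_spec
      mkLine := fun h => (D.fx_join K _ _ h).choose
      mkLine_ax := fun h => (D.fx_join K _ _ h).choose_spec
      exists_config := ⟨A, B, C, lAE, lBC, lBE, fun h => (hf _).1 ⟨h, hB2, hC2⟩,
        fun h => (hf _).2.1 ⟨h, hB3, hE3⟩, fun h => (hf _).2.1 ⟨hA1, h, hE1⟩, hB2, hB3,
        fun h => (hf _).2.2.1 ⟨hA1, h, hE1⟩, hC2, fun h => (hf _).2.2.2 ⟨hB3, h, hE3⟩⟩ }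
  refine ⟨{
    inc := fun x l => D.inc x.1 l.1
    inc_smul := ?_
    n := Configuration.ProjectivePlane.order (Fx P K) (Fx L K)
    two_le := Configuration.ProjectivePlane.one_lt_order _ _
    join := D.fx_join K
    meet := D.fx_meet K
    eq_or := fun h1 h2 h3 h4 =>
      (D.eq_or h1 h2 h3 h4).imp (fun e => Subtype.ext e) fun e => Subtype.ext e
    pts := fun l => Configuration.ProjectivePlane.pointCount_eq (Fx P K) l
    lns := fun x => Configuration.ProjectivePlane.lineCount_eq (Fx L K) x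
    faithful := ?_ }, fun _ _ => Iff.rfl⟩
  · intro g x l
    obtain ⟨g, rfl⟩ := toFxG_surjective K g
    rw [toFxG_smul_P, toFxG_smul_L, Fx.smul_val, Fx.smul_val]
    exact D.inc_smul (g : G) x.1 l.1
  · intro g hg
    obtain ⟨g, rfl⟩ := toFxG_surjective K g
    simp only [toFxG_smul_P] at hg
    have hl : ∀ l : Fx L K, g • l = l := by
      intro l
      obtain ⟨x, y, hxy, hx, hy⟩ : ∃ x y : Fx P K, x ≠ y ∧ D.inc x.1 l.1 ∧ D.inc y.1 l.1 := by
        have h := Configuration.ProjectivePlane.two_lt_pointCount (P := Fx P K) l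
        obtain ⟨⟨x, hx⟩, ⟨y, hy⟩, hxy⟩ := @exists_pair_ne _
          (Finite.one_lt_card_iff_nontrivial.1 (lt_trans Nat.one_lt_two h))
        exact ⟨x, y, fun e => hxy (Subtype.ext e), hx, hy⟩
      exact Subtype.ext (D.smul_line_of_fix (fun e => hxy (Subtype.ext e)) hx hy
        (congrArg Subtype.val (hg x)) (congrArg Subtype.val (hg y)))
    apply Subtype.ext
    exact Prod.ext (Equiv.ext hg) (Equiv.ext hl)

/-- The subplane fixed by a planar subgroup. -/
noncomputable def sub {K : Subgroup G} (hK : D.Planar K) : Pln (FxG P L K) (Fx P K) (Fx L K) :=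
  (D.exists_sub hK).choose

theorem sub_inc {K : Subgroup G} (hK : D.Planar K) (x : Fx P K) (l : Fx L K) :
    (D.sub hK).inc x l ↔ D.inc x.1 l.1 :=
  (D.exists_sub hK).choose_spec x l

theorem nonempty_fx {K : Subgroup G} (hK : D.Planar K) : Nonempty (Fx P K) := by
  obtain ⟨a, b, c, d, -, h⟩ := hK
  exact ⟨⟨a, fun k hk => (h k hk).1⟩⟩

theorem sub_pts {K : Subgroup G} (hK : D.Planar K) (l : Fx L K) :
    #{p ∈ D.ptsF l.1 | ∀ k ∈ K, k • p = p} = (D.sub hK).n + 1 := by
  rw [← (D.sub hK).card_ptsF l]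
  refine (Finset.card_bij (fun (x : Fx P K) _ => x.1) ?_ ?_ ?_).symm
  · intro x hx
    simp only [mem_ptsF, sub_inc] at hx
    simp only [Finset.mem_filter, mem_ptsF]
    exact ⟨hx, x.2⟩
  · exact fun x _ y _ e => Subtype.ext e
  · intro p hp
    simp only [Finset.mem_filter, mem_ptsF] at hp
    exact ⟨⟨p, hp.2⟩, (D.sub hK).mem_ptsF.2 ((D.sub_inc hK ⟨p, hp.2⟩ l).2 hp.1), rfl⟩

theorem sub_n_le {K : Subgroup G} (hK : D.Planar K) : (D.sub hK).n ≤ D.n := by
  haveI := D.nonempty_fx hK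
  obtain ⟨l⟩ := (D.sub hK).nonempty_line (Classical.arbitrary (Fx P K))
  have h := Finset.card_filter_le (D.ptsF l.1) (fun p => ∀ k ∈ K, k • p = p)
  rw [D.sub_pts hK l, D.card_ptsF] at h
  omega

theorem fix_of_n_eq {K : Subgroup G} (hK : D.Planar K) (h : (D.sub hK).n = D.n) : K = ⊥ := by
  haveI := D.nonempty_fx hK
  haveI : Nonempty P := ⟨(Classical.arbitrary (Fx P K)).1⟩
  have hc := (D.sub hK).card_points
  rw [h, ← D.card_points] at hc
  have hall : ∀ p : P, ∀ k ∈ K, k • p = p := by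
    intro p
    have hb := (Fintype.bijective_iff_injective_and_card (fun x : Fx P K => x.1)).2
      ⟨fun x y e => Subtype.ext e, hc⟩
    obtain ⟨x, rfl⟩ := hb.2 p
    exact x.2
  rw [Subgroup.eq_bot_iff_forall]
  exact fun k hk => D.faithful k fun p => hall p k hk

theorem sub_n_lt {K : Subgroup G} (hK : D.Planar K) (hne : K ≠ ⊥) : (D.sub hK).n < D.n :=
  lt_of_le_of_ne (D.sub_n_le hK) fun h => hne (D.fix_of_n_eq hK h)

/-- Every point is on a line fixed by an involution. -/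
theorem exists_fixed_line {g : G} (h2 : g * g = 1) (x : P) :
    ∃ l, D.inc x l ∧ g • l = l := by
  have hg2 : ∀ {α : Type} [MulAction G α] (y : α), g • g • y = y := fun y => by
    rw [smul_smul, h2, one_smul]
  by_cases hx : g • x = x
  swap
  · obtain ⟨h1, h1'⟩ := D.line_spec (Ne.symm hx)
    refine ⟨_, h1, D.eq_line (Ne.symm hx) ?_ ?_ h1 h1'⟩
    · have := (D.inc_smul g _ _).2 h1'
      rwa [hg2] at this
    · exact (D.inc_smul g _ _).2 h1
  by_cases hy : ∃ y, y ≠ x ∧ g • y = y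
  · obtain ⟨y, hyx, hgy⟩ := hy
    obtain ⟨h1, h1'⟩ := D.line_spec hyx
    exact ⟨_, h1', D.smul_line_of_fix hyx h1 h1' hgy hx⟩
  push Not at hy
  exfalso
  haveI : Nonempty P := ⟨x⟩
  have hf : #{p : P | g • p = p} = 1 := by
    rw [Finset.card_eq_one]
    exact ⟨x, by ext p; simp only [Finset.mem_filter, Finset.mem_univ, true_and,
      Finset.mem_singleton]; exact ⟨fun h => by_contra fun hne => hy p hne h, fun h => h ▸ hx⟩⟩
  rw [D.fix_eq, Finset.card_eq_one] at hf
  obtain ⟨m, hm⟩ := hf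
  have hcover : ∀ y, y ≠ x → D.inc y m := by
    intro y hyx
    obtain ⟨h1, h1'⟩ := D.line_spec (Ne.symm (hy y hyx))
    have hfix : g • D.line y (g • y) (Ne.symm (hy y hyx)) = D.line y (g • y) (Ne.symm (hy y hyx)) := by
      refine D.eq_line (Ne.symm (hy y hyx)) ?_ ?_ h1 h1'
      · have := (D.inc_smul g _ _).2 h1'
        rwa [hg2] at this
      · exact (D.inc_smul g _ _).2 h1
    have : D.line y (g • y) (Ne.symm (hy y hyx)) ∈ ({l : L | g • l = l} : Finset L) := by simp [hfix]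
    rw [hm, Finset.mem_singleton] at this
    exact this ▸ h1
  have hsub : (Finset.univ.erase x : Finset P) ⊆ D.ptsF m := fun y hy' =>
    D.mem_ptsF.2 (hcover y (Finset.ne_of_mem_erase hy'))
  have := Finset.card_le_card hsub
  rw [Finset.card_erase_of_mem (Finset.mem_univ _), Finset.card_univ, D.card_points,
    D.card_ptsF] at this
  have := D.two_le
  have : 2 * 2 ≤ D.n ^ 2 := by rw [sq]; exact Nat.mul_le_mul ‹2 ≤ D.n› ‹2 ≤ D.n›
  omega

theorem exists_fixed_point {g : G} (h2 : g * g = 1) (l : L) : ∃ x, D.inc x l ∧ g • x = x :=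
  D.dual.exists_fixed_line h2 l

/-- An involution has an axis or fixes a frame. -/
theorem axis_or_frame {g : G} (h2 : g * g = 1) [Nonempty P] :
    (∃ l, g ∈ D.axG l) ∨ ∃ a b c d, D.Frame a b c d ∧ g • a = a ∧ g • b = b ∧ g • c = c ∧ g • d = d := by
  by_cases hfr : ∃ a b c d, D.Frame a b c d ∧ g • a = a ∧ g • b = b ∧ g • c = c ∧ g • d = d
  · exact Or.inr hfr
  push Not at hfr
  left
  haveI := D.nonempty_line (Classical.arbitrary P)
  obtain ⟨l₀⟩ := ‹Nonempty L›
  suffices ∃ (o : P) (l : L), ∀ x, g • x = x → x = o ∨ D.inc x l by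
    obtain ⟨o, l, hol⟩ := this
    refine ⟨l, fun x hx => ?_⟩
    obtain ⟨k, hk, hkl, hko⟩ : ∃ k, D.inc x k ∧ k ≠ l ∧ ¬ (D.inc o k ∧ o ≠ x) := by
      by_cases hox : o = x
      · obtain ⟨k, hk, hkl⟩ := D.exists_line_ne x l
        exact ⟨k, hk, hkl, fun h => h.2 hox⟩
      · obtain ⟨h1, h1'⟩ := D.line_spec hox
        obtain ⟨k, hk, hkl, hk'⟩ := D.exists_line_ne₂ x l (D.line o x hox)
        exact ⟨k, hk, hkl, fun h => hk' (D.eq_line hox h.1 hk h1 h1')⟩
    obtain ⟨y, hyk, hgy⟩ := D.exists_fixed_point h2 k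
    have hyx : y = x := by
      rcases hol y hgy with h | h
      · subst h
        exact by_contra fun hne => hko ⟨hyk, hne⟩
      · exact D.eq_point hkl hyk hk h hx
    exact hyx ▸ hgy
  by_cases hl : ∃ l, ∀ x, g • x = x → D.inc x l
  · obtain ⟨l, hl⟩ := hl
    exact ⟨Classical.arbitrary P, l, fun x hx => Or.inr (hl x hx)⟩
  push Not at hl
  obtain ⟨a, -, hga⟩ := D.exists_fixed_point h2 l₀
  obtain ⟨b, hb, hgb⟩ : ∃ b, b ≠ a ∧ g • b = b := by
    obtain ⟨m, hm⟩ := D.exists_not_inc_line a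
    obtain ⟨b, hbm, hgb⟩ := D.exists_fixed_point h2 m
    exact ⟨b, fun e => hm (e ▸ hbm), hgb⟩
  obtain ⟨hAb, hAa⟩ := D.line_spec hb
  generalize D.line b a hb = A at hAb hAa
  obtain ⟨c, hgc, hc⟩ := hl A
  have hca : c ≠ a := fun e => hc (e ▸ hAa)
  have hcb : c ≠ b := fun e => hc (e ▸ hAb)
  obtain ⟨hBc, hBa⟩ := D.line_spec hca
  obtain ⟨hCc, hCb⟩ := D.line_spec hcb
  generalize D.line c a hca = B at hBc hBa
  generalize D.line c b hcb = C at hCc hCb
  -- every fixed point lies on a side of the triangle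
  have hside : ∀ x, g • x = x → D.inc x A ∨ D.inc x B ∨ D.inc x C := by
    intro x hx
    by_contra h
    push Not at h
    exact hfr a b c x (fun l => ⟨fun ⟨h1, h2, h3⟩ => hc (D.eq_line hb h2 h1 hAb hAa ▸ h3),
      fun ⟨h1, h2, h3⟩ => h.1 (D.eq_line hb h2 h1 hAb hAa ▸ h3),
      fun ⟨h1, h2, h3⟩ => h.2.1 (D.eq_line hca h2 h1 hBc hBa ▸ h3),
      fun ⟨h1, h2, h3⟩ => h.2.2 (D.eq_line hcb h2 h1 hCc hCb ▸ h3)⟩) hga hgb hgc hx
  -- two sides cannot both carry a further fixed point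
  have key : ∀ (u v w x y : P) (U V : L), g • v = v → g • w = w → g • x = x → g • y = y →
      u ≠ v → u ≠ w → D.inc u U → D.inc v U → D.inc u V → D.inc w V → ¬ D.inc w U →
      D.inc x U → D.inc y V → x ≠ u → x ≠ v → y ≠ u → y ≠ w → False := by
    intro u v w x y U V hv hw hx hy huv huw huU hvU huV hwV hwU hxU hyV hxu hxv hyu hyw
    have hUV : U ≠ V := fun e => hwU (e ▸ hwV)
    refine hfr v w x y (fun l => ⟨?_, ?_, ?_, ?_⟩) hv hw hx hy <;> rintro ⟨h1, h2, h3⟩
    · exact hwU (D.eq_line hxv h3 h1 hxU hvU ▸ h2)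
    · have e := D.eq_line hyw h3 h2 hyV hwV
      exact huv (D.eq_point hUV huU hvU huV (e ▸ h1))
    · have e := D.eq_line hxv h2 h1 hxU hvU
      exact hyu (D.eq_point hUV (e ▸ h3) huU hyV huV)
    · have e := D.eq_line hyw h3 h1 hyV hwV
      exact hxu (D.eq_point hUV hxU huU (e ▸ h2) huV)
  by_cases hB' : ∀ x, g • x = x → D.inc x B → x = c ∨ x = a
  · by_cases hC' : ∀ x, g • x = x → D.inc x C → x = c ∨ x = b
    · refine ⟨c, A, fun x hx => ?_⟩
      rcases hside x hx with h | h | h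
      · exact Or.inr h
      · exact (hB' x hx h).elim Or.inl fun e => Or.inr (e ▸ hAa)
      · exact (hC' x hx h).elim Or.inl fun e => Or.inr (e ▸ hAb)
    · push Not at hC'
      obtain ⟨y, hgy, hyC, hyc, hyb⟩ := hC'
      refine ⟨a, C, fun x hx => ?_⟩
      rcases hside x hx with h | h | h
      · by_cases hxa : x = a
        · exact Or.inl hxa
        by_cases hxb : x = b
        · exact Or.inr (hxb ▸ hCb)
        exact (key b a c x y A C hga hgc hx hgy hb hcb.symm hAb hAa hCb hCc hc h hyC hxb hxa hyb hyc).elim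
      · exact (hB' x hx h).elim (fun e => Or.inr (e ▸ hCc)) Or.inl
      · exact Or.inr h
  · push Not at hB'
    obtain ⟨y, hgy, hyB, hyc, hya⟩ := hB'
    refine ⟨b, B, fun x hx => ?_⟩
    rcases hside x hx with h | h | h
    · by_cases hxb : x = b
      · exact Or.inl hxb
      by_cases hxa : x = a
      · exact Or.inr (hxa ▸ hBa)
      exact (key a b c x y A B hgb hgc hx hgy hb.symm hca.symm hAa hAb hBa hBc hc h hyB hxa hxb hya hyc).elim
    · exact Or.inr h
    · by_cases hxb : x = b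
      · exact Or.inl hxb
      by_cases hxc : x = c
      · exact Or.inr (hxc ▸ hBc)
      exact (key c b a x y C B hgb hga hx hgy hcb hca hCc hCb hBc hBa
        (fun e => hc (D.eq_line hb hCb e hAb hAa ▸ hCc)) h hyB hxc hxb hyc hya).elim

/-- An involution fixing a frame is a Baer involution. -/
theorem baer {g : G} (h2 : g * g = 1) (hg : g ≠ 1) (hK : D.Planar (Subgroup.zpowers g)) :
    D.n = (D.sub hK).n ^ 2 := by
  haveI := D.nonempty_fx hK
  haveI : Nonempty P := ⟨(Classical.arbitrary (Fx P (Subgroup.zpowers g))).1⟩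
  set k := (D.sub hK).n with hk
  have hlt : k < D.n := D.sub_n_lt hK fun e => hg (Subgroup.zpowers_eq_bot.1 e)
  let F : Finset L := {l | g • l = l}
  let M : Finset P := {p | g • p ≠ p}
  have hiff : ∀ p : P, (∀ x ∈ Subgroup.zpowers g, x • p = p) ↔ g • p = p := fun p =>
    ⟨fun h => h g (Subgroup.mem_zpowers g), fun h x hx => by
      obtain ⟨j, rfl⟩ := Subgroup.mem_zpowers_iff.1 hx
      exact (Subgroup.zpowers_le (g := g) (H := stabilizer G p)).2 h (Subgroup.zpow_mem_zpowers g j)⟩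
  have hline : ∀ l ∈ F, #{p ∈ D.ptsF l | g • p ≠ p} = D.n - k := by
    intro l hl
    have hl' : ∀ x ∈ Subgroup.zpowers g, x • l = l := fun x hx =>
      (Subgroup.zpowers_le (g := g) (H := stabilizer G l)).2 (Finset.mem_filter.1 hl).2 hx
    have h1 := D.sub_pts hK ⟨l, hl'⟩
    rw [Finset.filter_congr fun p _ => hiff p] at h1
    have h3 := Finset.card_filter_add_card_filter_not (s := D.ptsF l) (fun p => g • p = p)
    rw [h1, D.card_ptsF] at h3
    simp only [ne_eq]
    omega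
  have hMu : M = F.biUnion fun l => {p ∈ D.ptsF l | g • p ≠ p} := by
    ext p
    simp only [M, F, Finset.mem_filter, Finset.mem_univ, true_and, Finset.mem_biUnion, mem_ptsF]
    refine ⟨fun h => ?_, fun ⟨l, _, _, h⟩ => h⟩
    obtain ⟨l, h1, h1'⟩ := D.exists_fixed_line h2 p
    exact ⟨l, h1', h1, h⟩
  have hdis : (F : Set L).PairwiseDisjoint fun l => {p ∈ D.ptsF l | g • p ≠ p} := by
    intro l hl m hm hlm
    rw [Function.onFun, Finset.disjoint_left]
    intro p hp hp'
    simp only [Finset.mem_filter, mem_ptsF] at hp hp'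
    exact hp.2 (D.smul_point_of_fix hlm hp.1 hp'.1 (Finset.mem_filter.1 hl).2
      (Finset.mem_filter.1 hm).2)
  have hcard := congrArg Finset.card hMu
  rw [Finset.card_biUnion hdis, Finset.sum_congr rfl hline, Finset.sum_const, smul_eq_mul] at hcard
  have hfixed : #{p : P | g • p = p} = k ^ 2 + k + 1 := by
    rw [hk, ← (D.sub hK).card_points]
    exact ((Fintype.card_congr (Equiv.subtypeEquivRight hiff)).trans (Fintype.card_subtype _)).symm
  have hF : #F = k ^ 2 + k + 1 := by rw [← hfixed, D.fix_eq]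
  have hM : #M + (k ^ 2 + k + 1) = D.n ^ 2 + D.n + 1 := by
    rw [← hfixed, ← D.card_points, ← Finset.card_univ (α := P), add_comm]
    exact Finset.card_filter_add_card_filter_not (s := (Finset.univ : Finset P)) (fun p => g • p = p)
  rw [hF] at hcard
  obtain ⟨t, ht⟩ : ∃ t, D.n = k + t := ⟨D.n - k, by omega⟩
  rw [hcard, ht, Nat.add_sub_cancel_left] at hM
  have h5 : t * (k + (k + t) + 1) = t * (k ^ 2 + k + 1) := by ring_nf at hM ⊢; omega
  have h6 := Nat.eq_of_mul_eq_mul_left (by omega) h5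
  rw [ht]
  omega

end Pln

end CfsgLib.OstromWagner98
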