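import Mathlib
import Cfsg.Agent.OstromWagner98.Count
import Cfsg.Agent.OstromWagner98.Odd
import Cfsg.Agent.OstromWagner98.Even
import Cfsg.Agent.OstromWagner98.Subplane

/-!
The order of a finite projective plane with a doubly transitive group is a prime power.
-/

set_option autoImplicit false
set_option linter.unusedSectionVars false
set_option linter.style.haveILetI false

namespace CfsgLib.OstromWagner98

open MulAction Finset
open scoped Classical

variable {G P L : Type} [Group G] [MulAction G P] [MulAction G L] [Fintype P] [Fintype L]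

theorem toFxG_eq_one {K : Subgroup G} (y : Subgroup.normalizer (K : Set G)) (h : (y : G) ∈ K) :
    toFxG P L K y = 1 :=
  Subtype.ext (Prod.ext (Equiv.ext fun x => Subtype.ext (x.2 _ h))
    (Equiv.ext fun x => Subtype.ext (x.2 _ h)))

namespace Pln

variable (D : Pln G P L)

theorem eq_of_sq_add_eq {k m : ℕ} (h : k ^ 2 + k + 1 = m ^ 2 + m + 1) : k = m := by
  rcases lt_trichotomy k m with hl | hl | hl
  · have := Nat.pow_le_pow_left hl.le 2; omega
  · exact hl
  · have := Nat.pow_le_pow_left hl.le 2; omega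

/-- A planar `2`-group fixes a subplane of order `k` with `n = k ^ 2 ^ j`. -/
theorem pow_of_planar : ∀ m : ℕ, ∀ {G P L : Type} [Group G] [MulAction G P] [MulAction G L]
    [Fintype P] [Fintype L] [Finite G] (D : Pln G P L) {U : Subgroup G} (hU : D.Planar U),
    Nat.card U = m → IsPGroup 2 U → ∃ j, D.n = (D.sub hU).n ^ (2 ^ j) := by
  intro m
  induction m using Nat.strong_induction_on with | _ m ih
  intro G P L _ _ _ _ _ _ D U hU hm h2
  haveI := D.nonempty_fx hU
  haveI : Nonempty P := ⟨(Classical.arbitrary (Fx P U)).1⟩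
  by_cases hbot : U = ⊥
  · refine ⟨0, ?_⟩
    rw [pow_zero, pow_one]
    refine eq_of_sq_add_eq ?_
    rw [← D.card_points, ← (D.sub hU).card_points]
    exact (Fintype.card_congr ⟨fun p => ⟨p, fun k hk => by
      rw [hbot, Subgroup.mem_bot] at hk; rw [hk, one_smul]⟩, fun x => x.1, fun _ => rfl, fun _ => rfl⟩)
  haveI : Fact (Nat.Prime 2) := ⟨Nat.prime_two⟩
  haveI : Nontrivial U := Subgroup.bot_or_nontrivial U |>.resolve_left hbot
  haveI := h2.center_nontrivial
  obtain ⟨e, he⟩ := IsPGroup.iff_card.1 (h2.to_subgroup (Subgroup.center U))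
  have he0 : e ≠ 0 := by
    rintro rfl
    exact absurd he (by rw [pow_zero]; exact (Finite.one_lt_card (α := Subgroup.center U)).ne')
  obtain ⟨⟨⟨z, hzU⟩, hzc⟩, hz⟩ := exists_prime_orderOf_dvd_card' (G := Subgroup.center U) 2
    (he ▸ dvd_pow_self 2 he0)
  have hz' : orderOf z = 2 := by simpa only [Subgroup.orderOf_mk] using hz
  have hz2 : z * z = 1 := by rw [← sq, ← hz', pow_orderOf_eq_one]
  have hz1 : z ≠ 1 := fun e => by rw [e, orderOf_one] at hz'; omega
  set Z := Subgroup.zpowers z with hZdef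
  have hZU : Z ≤ U := Subgroup.zpowers_le.2 hzU
  have hZp : D.Planar Z := hU.anti hZU
  have hbaer := D.baer hz2 hz1 hZp
  have hUN : U ≤ Subgroup.normalizer (Z : Set G) := by
    intro u hu
    have hc : ∀ w ∈ Z, u * w = w * u := by
      intro w hw
      obtain ⟨j, rfl⟩ := Subgroup.mem_zpowers_iff.1 hw
      exact (Commute.zpow_right (congrArg Subtype.val (Subgroup.mem_center_iff.1 hzc ⟨u, hu⟩)) j)
    rw [Subgroup.mem_normalizer_iff]
    intro w
    refine ⟨fun hw => ?_, fun hw => ?_⟩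
    · rw [hc w hw, mul_inv_cancel_right]; exact hw
    · have h1 := hc _ hw
      have h2 : w = u * w * u⁻¹ := by
        have h3 : u * (u * w * u⁻¹) = u * w := by rw [h1, inv_mul_cancel_right]
        exact (mul_left_cancel h3).symm
      rwa [h2]
  let f : U →* FxG P L Z := (toFxG P L Z).comp (Subgroup.inclusion hUN)
  let U' : Subgroup (FxG P L Z) := f.range
  have hU'2 : IsPGroup 2 U' := h2.of_surjective f.rangeRestrict f.rangeRestrict_surjective
  have hlt : Nat.card U' < Nat.card U := by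
    refine lt_of_le_of_ne (Nat.card_le_card_of_surjective _ f.rangeRestrict_surjective) fun h => ?_
    have hinj := ((Nat.bijective_iff_surjective_and_card f.rangeRestrict).2
      ⟨f.rangeRestrict_surjective, h.symm⟩).1
    have h1 : f.rangeRestrict ⟨z, hzU⟩ = f.rangeRestrict 1 := by
      rw [map_one]
      exact Subtype.ext (toFxG_eq_one _ (Subgroup.mem_zpowers z))
    exact hz1 (congrArg Subtype.val (hinj h1))
  have hfix : ∀ x : Fx P Z, (∀ w ∈ U', w • x = x) ↔ ∀ u ∈ U, u • x.1 = x.1 := by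
    intro x
    refine ⟨fun h u hu => congrArg Subtype.val (h (f ⟨u, hu⟩) ⟨⟨u, hu⟩, rfl⟩), ?_⟩
    rintro h _ ⟨⟨u, hu⟩, rfl⟩
    exact Subtype.ext (h u hu)
  have hU' : (D.sub hZp).Planar U' := by
    obtain ⟨a, b, c, d, hf, hk⟩ := hU
    let A : Fx P Z := ⟨a, fun w hw => (hk w (hZU hw)).1⟩
    let B : Fx P Z := ⟨b, fun w hw => (hk w (hZU hw)).2.1⟩
    let C : Fx P Z := ⟨c, fun w hw => (hk w (hZU hw)).2.2.1⟩
    let E : Fx P Z := ⟨d, fun w hw => (hk w (hZU hw)).2.2.2⟩
    refine ⟨A, B, C, E, fun l => ?_, fun w hw => ?_⟩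
    · simp only [sub_inc]; exact hf l.1
    · exact ⟨(hfix A).2 (fun u hu => (hk u hu).1) w hw,
        (hfix B).2 (fun u hu => (hk u hu).2.1) w hw, (hfix C).2 (fun u hu => (hk u hu).2.2.1) w hw,
        (hfix E).2 (fun u hu => (hk u hu).2.2.2) w hw⟩
  obtain ⟨j, hj⟩ := ih _ (hm ▸ hlt) (D.sub hZp) hU' rfl hU'2
  haveI := (D.sub hZp).nonempty_fx hU'
  haveI := D.nonempty_fx hZp
  have hk : ((D.sub hZp).sub hU').n = (D.sub hU).n := by
    refine eq_of_sq_add_eq ?_
    rw [← ((D.sub hZp).sub hU').card_points, ← (D.sub hU).card_points]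
    exact Fintype.card_congr
      { toFun := fun x => (⟨x.1.1, (hfix x.1).1 x.2⟩ : Fx P U)
        invFun := fun x => (⟨⟨x.1, fun w hw => x.2 w (hZU hw)⟩, (hfix _).2 x.2⟩ : Fx (Fx P Z) U')
        left_inv := fun x => rfl
        right_inv := fun x => rfl }
  refine ⟨j + 1, ?_⟩
  rw [hbaer, hj, hk, ← pow_mul, ← pow_succ]

variable [Finite G]

/-- A maximal planar `2`-group. -/
abbrev MaxPlanar (U : Subgroup G) : Prop :=
  D.Planar U ∧ IsPGroup 2 U ∧
    ∀ V : Subgroup G, D.Planar V → IsPGroup 2 V → U ≤ V → V = U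

theorem exists_maxPlanar [Nonempty P] : ∃ U, D.MaxPlanar U := by
  obtain ⟨U, hU, hmax⟩ := (Set.toFinite {U : Subgroup G | D.Planar U ∧ IsPGroup 2 U}).exists_maximal
    ⟨⊥, Planar.bot D, IsPGroup.of_bot⟩
  exact ⟨U, hU.1, hU.2, fun V h1 h2 hle => le_antisymm (hmax ⟨h1, h2⟩ hle) hle⟩

theorem MaxPlanar.dual {D : Pln G P L} {U : Subgroup G} (h : D.MaxPlanar U) :
    D.dual.MaxPlanar U :=
  ⟨h.1.dual, h.2.1, fun V hV hV2 hle => h.2.2 V (Planar.dual hV) hV2 hle⟩

/-- A `2`-element of the normaliser fixing a frame of the subplane lies in the group. -/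
theorem MaxPlanar.mem_of_frame {D : Pln G P L} {U : Subgroup G} (h : D.MaxPlanar U)
    (y : Subgroup.normalizer (U : Set G)) (hy : IsPGroup 2 (Subgroup.zpowers (y : G)))
    {a b c d : Fx P U} (hf : (D.sub h.1).Frame a b c d) (ha : y • a = a) (hb : y • b = b)
    (hc : y • c = c) (hd : y • d = d) : (y : G) ∈ U := by
  have hle : Subgroup.zpowers (y : G) ≤ Subgroup.normalizer (U : Set G) := Subgroup.zpowers_le.2 y.2
  have h2 : IsPGroup 2 (Subgroup.zpowers (y : G) ⊔ U : Subgroup G) :=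
    hy.to_sup_of_normal_right' h.2.1 hle
  have hp : D.Planar (Subgroup.zpowers (y : G) ⊔ U) := by
    have key : ∀ x : Fx P U, y • x = x → Subgroup.zpowers (y : G) ⊔ U ≤ stabilizer G x.1 := fun x hx =>
      sup_le (Subgroup.zpowers_le.2 (congrArg Subtype.val hx)) x.2
    refine ⟨a.1, b.1, c.1, d.1, fun l => ?_, fun k hk =>
      ⟨key a ha hk, key b hb hk, key c hc hk, key d hd hk⟩⟩
    have hfix : ∀ u v : Fx P U, u ≠ v → D.inc u.1 l → D.inc v.1 l → ∀ k ∈ U, k • l = l :=
      fun u v huv h1 h2 k hk =>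
        D.smul_line_of_fix (fun e => huv (Subtype.ext e)) h1 h2 (u.2 k hk) (v.2 k hk)
    obtain ⟨hab, hac, -, hbc, -, -⟩ := hf.ne
    have cv : ∀ (m : Fx L U) (u : Fx P U), D.inc u.1 m.1 → (D.sub h.1).inc u m := fun m u hu =>
      (D.sub_inc h.1 u m).2 hu
    refine ⟨?_, ?_, ?_, ?_⟩ <;> rintro ⟨h1, h2, h3⟩
    · let m : Fx L U := ⟨l, hfix a b hab h1 h2⟩
      exact (hf m).1 ⟨cv m a h1, cv m b h2, cv m c h3⟩
    · let m : Fx L U := ⟨l, hfix a b hab h1 h2⟩
      exact (hf m).2.1 ⟨cv m a h1, cv m b h2, cv m d h3⟩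
    · let m : Fx L U := ⟨l, hfix a c hac h1 h2⟩
      exact (hf m).2.2.1 ⟨cv m a h1, cv m c h2, cv m d h3⟩
    · let m : Fx L U := ⟨l, hfix b c hbc h1 h2⟩
      exact (hf m).2.2.2 ⟨cv m b h1, cv m c h2, cv m d h3⟩
  have hmem : (y : G) ∈ Subgroup.zpowers (y : G) ⊔ U := Subgroup.mem_sup_left (Subgroup.mem_zpowers _)
  rwa [h.2.2 _ hp h2 le_sup_right] at hmem

theorem MaxPlanar.ne_one {D : Pln G P L} {U : Subgroup G} (h : D.MaxPlanar U)
    (y : Subgroup.normalizer (U : Set G)) (hy : IsPGroup 2 (Subgroup.zpowers (y : G)))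
    (hyU : (y : G) ∉ U) : toFxG P L U y ≠ 1 := by
  intro e
  haveI := D.nonempty_fx h.1
  obtain ⟨a, b, c, d, hf⟩ := (D.sub h.1).exists_frame
  have key : ∀ x : Fx P U, y • x = x := fun x => by
    rw [← toFxG_smul_P (L := L), e, one_smul]
  exact hyU (h.mem_of_frame y hy hf (key a) (key b) (key c) (key d))

theorem exists_two_lift {U : Subgroup G} {z : FxG P L U} (h2 : z * z = 1) :
    ∃ y : Subgroup.normalizer (U : Set G),
      IsPGroup 2 (Subgroup.zpowers (y : G)) ∧ toFxG P L U y = z := by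
  obtain ⟨y, rfl⟩ := toFxG_surjective U z
  obtain ⟨e, o, ho, hy⟩ := Nat.exists_eq_two_pow_mul_odd (isOfFinOrder_of_finite y).orderOf_pos.ne'
  refine ⟨y ^ o, pgroup_zpowers_of_orderOf (k := e) ?_, ?_⟩
  · rw [SubmonoidClass.coe_pow, orderOf_pow, Subgroup.orderOf_coe, hy,
      Nat.gcd_eq_right (dvd_mul_left o (2 ^ e)), Nat.mul_div_cancel _ ho.pos]
  · obtain ⟨j, rfl⟩ := ho
    rw [map_pow, pow_succ, pow_mul, sq, h2, one_pow, one_mul]

/-- Any two points of the fixed subplane of a maximal planar `2`-group are fixed by a further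
`2`-element of its normaliser. -/
theorem exists_pair_element [Nonempty P] (hTwo : Two (G := G) (P := P)) {U : Subgroup G}
    (hU : D.MaxPlanar U) {a b : Fx P U} (hab : a ≠ b) :
    ∃ y : Subgroup.normalizer (U : Set G), IsPGroup 2 (Subgroup.zpowers (y : G)) ∧
      (y : G) * y ∈ U ∧ (y : G) ∉ U ∧ y • a = a ∧ y • b = b := by
  haveI : Fact (Nat.Prime 2) := ⟨Nat.prime_two⟩
  have hab' : a.1 ≠ b.1 := fun e => hab (Subtype.ext e)
  obtain ⟨H, hUH, hH⟩ := exists_maxP (p := 2) (stabilizer G a.1 ⊓ stabilizer G b.1) U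
    (fun u hu => ⟨a.2 u hu, b.2 u hu⟩) hU.2.1
  by_cases hHU : H = U
  · exfalso
    subst hHU
    obtain ⟨g, hga, hgb⟩ := hTwo a.1 b.1 b.1 a.1 hab' hab'.symm
    have hgi : g⁻¹ • a.1 = b.1 ∧ g⁻¹ • b.1 = a.1 :=
      ⟨by rw [inv_smul_eq_iff, hgb], by rw [inv_smul_eq_iff, hga]⟩
    have hconj : H.map (MulAut.conj g).toMonoidHom ≤ stabilizer G a.1 ⊓ stabilizer G b.1 := by
      rintro _ ⟨u, hu, rfl⟩
      obtain ⟨h1, h2⟩ := hH.1 hu
      simp only [Subgroup.mem_inf, mem_stabilizer_iff, MulEquiv.coe_toMonoidHom, MulAut.conj_apply]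
      exact ⟨by rw [mul_smul, mul_smul, hgi.1, (h2 : u • b.1 = b.1), hgb],
        by rw [mul_smul, mul_smul, hgi.2, (h1 : u • a.1 = a.1), hga]⟩
    obtain ⟨k, hk, hkU⟩ := hH.exists_conj hconj (hU.2.1.map _)
    have hyN : k * g ∈ Subgroup.normalizer (H : Set G) := by
      have hmap : H.map (MulAut.conj (k * g)).toMonoidHom = H := by
        refine Subgroup.eq_of_le_of_card_ge ?_
          (Nat.card_congr (H.equivMapOfInjective _ (MulAut.conj (k * g)).injective).toEquiv).le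
        rintro _ ⟨u, hu, rfl⟩
        have := hkU _ ⟨u, hu, rfl⟩
        simpa [mul_assoc] using this
      rw [Subgroup.mem_normalizer_iff]
      intro w
      constructor
      · intro hw
        have : (k * g) * w * (k * g)⁻¹ ∈ H.map (MulAut.conj (k * g)).toMonoidHom := ⟨w, hw, rfl⟩
        rwa [hmap] at this
      · intro hw
        rw [← hmap] at hw
        obtain ⟨u, hu, he⟩ := hw
        simp only [MulEquiv.coe_toMonoidHom, MulAut.conj_apply, mul_left_inj, mul_right_inj] at he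
        exact he ▸ hu
    obtain ⟨hka, hkb⟩ := hk
    set z := toFxG P L H ⟨k * g, hyN⟩ with hzdef
    have hza : z • a = b := Subtype.ext (by
      show (k * g) • a.1 = b.1
      rw [mul_smul, hga]; exact hkb)
    have hzb : z • b = a := Subtype.ext (by
      show (k * g) • b.1 = a.1
      rw [mul_smul, hgb]; exact hka)
    have heven : Even (orderOf z) := by
      by_contra hodd
      obtain ⟨j, hj⟩ := Nat.not_even_iff_odd.1 hodd
      have h1 : z = (z ^ 2) ^ (j + 1) := by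
        rw [← pow_mul, show 2 * (j + 1) = orderOf z + 1 by omega, pow_succ, pow_orderOf_eq_one,
          one_mul]
      have h2 : (z ^ 2) • a = a := by rw [sq, mul_smul, hza, hzb]
      have h3 : z ∈ stabilizer (FxG P L H) a := h1 ▸ (stabilizer (FxG P L H) a).pow_mem h2 _
      exact hab ((h3 : z • a = a).symm.trans hza)
    obtain ⟨m, hm⟩ := heven
    have hpos := (isOfFinOrder_of_finite z).orderOf_pos
    have hw2 : z ^ m * z ^ m = 1 := by rw [← pow_add, ← hm, pow_orderOf_eq_one]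
    have hw1 : z ^ m ≠ 1 := pow_ne_one_of_lt_orderOf (by omega) (by omega)
    haveI := D.nonempty_fx hU.1
    haveI := (D.sub hU.1).nonempty_line a
    obtain ⟨l⟩ := ‹Nonempty (Fx L H)›
    obtain ⟨x, -, hx⟩ := (D.sub hU.1).exists_fixed_point hw2 l
    obtain ⟨l', hl'⟩ := (D.sub hU.1).exists_not_inc_line x
    obtain ⟨x', hx'l, hx'⟩ := (D.sub hU.1).exists_fixed_point hw2 l'
    have hxx : x ≠ x' := fun e => hl' (e ▸ hx'l)
    obtain ⟨y, hy2, hy⟩ := exists_two_lift hw2
    have hyU : (y : G) ∉ H := fun h => hw1 (hy ▸ toFxG_eq_one y h)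
    have hsup : IsPGroup 2 (Subgroup.zpowers (y : G) ⊔ H : Subgroup G) :=
      hy2.to_sup_of_normal_right' hU.2.1 (Subgroup.zpowers_le.2 y.2)
    obtain ⟨g', hg'a, hg'b⟩ := hTwo x.1 x'.1 a.1 b.1 (fun e => hxx (Subtype.ext e)) hab'
    have hyx : (y : G) • x.1 = x.1 := by
      rw [← hy] at hx; exact congrArg Subtype.val hx
    have hyx' : (y : G) • x'.1 = x'.1 := by
      rw [← hy] at hx'; exact congrArg Subtype.val hx'
    have hle : (Subgroup.zpowers (y : G) ⊔ H).map (MulAut.conj g').toMonoidHom ≤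
        stabilizer G a.1 ⊓ stabilizer G b.1 := by
      rintro _ ⟨u, hu, rfl⟩
      have h1 : u • x.1 = x.1 := (sup_le (Subgroup.zpowers_le.2 hyx) x.2 :
        Subgroup.zpowers (y : G) ⊔ H ≤ stabilizer G x.1) hu
      have h2 : u • x'.1 = x'.1 := (sup_le (Subgroup.zpowers_le.2 hyx') x'.2 :
        Subgroup.zpowers (y : G) ⊔ H ≤ stabilizer G x'.1) hu
      simp only [Subgroup.mem_inf, mem_stabilizer_iff, MulEquiv.coe_toMonoidHom, MulAut.conj_apply]
      rw [← hg'a, ← hg'b]
      exact ⟨by rw [mul_smul, mul_smul, inv_smul_smul, h1],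
        by rw [mul_smul, mul_smul, inv_smul_smul, h2]⟩
    have h1 := hH.card_le hle (hsup.map _)
    rw [Subgroup.card_map_of_injective (MulAut.conj g').injective] at h1
    have hmem : (y : G) ∈ Subgroup.zpowers (y : G) ⊔ H := Subgroup.mem_sup_left (Subgroup.mem_zpowers _)
    rw [← Subgroup.eq_of_le_of_card_ge (le_sup_right (a := Subgroup.zpowers (y : G))) h1] at hmem
    exact hyU hmem
  haveI : Group.IsNilpotent H := hH.2.1.isNilpotent
  have hlt : U.subgroupOf H < ⊤ := lt_top_iff_ne_top.2 fun e =>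
    hHU (le_antisymm (Subgroup.subgroupOf_eq_top.1 e) hUH)
  obtain ⟨w, hwN, hwU⟩ := SetLike.exists_of_lt (Group.normalizerCondition_of_isNilpotent _ hlt)
  have hwG : (w : G) ∈ Subgroup.normalizer (U : Set G) := by
    rw [Subgroup.mem_normalizer_iff]
    intro u
    have hmem := Subgroup.mem_normalizer_iff.1 hwN
    refine ⟨fun hu => (hmem ⟨u, hUH hu⟩).1 hu, fun hu => ?_⟩
    have huH : u ∈ H := by
      have := H.mul_mem (H.mul_mem (H.inv_mem w.2) (hUH hu)) w.2
      simpa [mul_assoc] using this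
    exact (hmem ⟨u, huH⟩).2 hu
  have hwU' : (w : G) ∉ U := fun h => hwU h
  have hex : ∃ j, (w : G) ^ 2 ^ j ∈ U := by
    obtain ⟨j, hj⟩ := hH.2.1 w
    refine ⟨j, ?_⟩
    rw [← SubmonoidClass.coe_pow, hj]
    exact U.one_mem
  have hj0 : Nat.find hex ≠ 0 := fun e => hwU' (by
    have := Nat.find_spec hex
    rwa [e, pow_zero, pow_one] at this)
  obtain ⟨j, hj⟩ := Nat.exists_eq_succ_of_ne_zero hj0
  have hyH : (w : G) ^ 2 ^ j ∈ H := H.pow_mem w.2 _
  refine ⟨⟨(w : G) ^ 2 ^ j, Subgroup.pow_mem _ hwG _⟩, hH.2.1.to_le (Subgroup.zpowers_le.2 hyH),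
    ?_, ?_, Subtype.ext (hH.1 hyH).1, Subtype.ext (hH.1 hyH).2⟩
  · show (w : G) ^ 2 ^ j * (w : G) ^ 2 ^ j ∈ U
    rw [← pow_add, ← two_mul, ← pow_succ', ← Nat.succ_eq_add_one, ← hj]
    exact Nat.find_spec hex
  · exact Nat.find_min hex (by omega)

theorem rich_sub [Nonempty P] (hTwo : Two (G := G) (P := P)) {U : Subgroup G}
    (hU : D.MaxPlanar U) : (D.sub hU.1).Rich := by
  haveI := D.nonempty_fx hU.1
  haveI := D.nonempty_line (Classical.arbitrary P)
  constructor
  · intro z h2 h1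
    refine ((D.sub hU.1).axis_or_frame h2).resolve_right ?_
    rintro ⟨a, b, c, d, hf, ha, hb, hc, hd⟩
    obtain ⟨y, hy2, rfl⟩ := exists_two_lift h2
    simp only [toFxG_smul_P] at ha hb hc hd
    exact h1 (toFxG_eq_one y (hU.mem_of_frame y hy2 hf ha hb hc hd))
  · intro a b hab
    obtain ⟨y, hy2, hyy, hyU, ha, hb⟩ := D.exists_pair_element hTwo hU hab
    exact ⟨toFxG P L U y, by rw [← map_mul]; exact toFxG_eq_one _ hyy, hU.ne_one y hy2 hyU,
      by rw [toFxG_smul_P, ha], by rw [toFxG_smul_P, hb]⟩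
  · intro l m hlm
    obtain ⟨y, hy2, hyy, hyU, hl, hm⟩ :=
      D.dual.exists_pair_element (D.two_dual hTwo) hU.dual hlm
    exact ⟨toFxG P L U y, by rw [← map_mul]; exact toFxG_eq_one _ hyy, hU.ne_one y hy2 hyU,
      by rw [toFxG_smul_L, hl], by rw [toFxG_smul_L, hm]⟩

/-- The order of a plane with a doubly transitive group is a prime power. -/
theorem isPrimePow [Nonempty P] (hTwo : Two (G := G) (P := P)) : IsPrimePow D.n := by
  obtain ⟨U, hU⟩ := D.exists_maxPlanar
  haveI := D.nonempty_fx hU.1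
  have hk : IsPrimePow (D.sub hU.1).n := by
    rcases Nat.even_or_odd (D.sub hU.1).n with he | ho
    · exact (D.sub hU.1).even_prime_pow he (D.rich_sub hTwo hU)
    · exact (D.sub hU.1).odd_prime_pow ho (D.rich_sub hTwo hU)
  obtain ⟨j, hj⟩ := pow_of_planar _ D hU.1 rfl hU.2.1
  rw [hj]
  exact hk.pow (pow_ne_zero _ two_ne_zero)

end Pln

end CfsgLib.OstromWagner98
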