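import Mathlib
import Cfsg.Agent.OstromWagner98.Count
import Cfsg.Agent.ItoDesign48.Main

/-!
A doubly transitive projective plane as a symmetric design with `λ = 1`, and its elations.
-/

set_option autoImplicit false
set_option linter.unusedSectionVars false
set_option linter.style.haveILetI false

namespace CfsgLib.OstromWagner98

open MulAction Finset
open scoped Classical

variable {G P L : Type} [Group G] [MulAction G P] [MulAction G L] [Fintype P] [Fintype L]

namespace Pln

variable (D : Pln G P L) [Finite G] [Nonempty P]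

/-- The symmetric design of a plane with a doubly transitive group. -/
noncomputable def toSym (h : Two (G := G) (P := P)) : ItoDesign48.Sym G P L where
  inc := D.inc
  inc_smul := D.inc_smul
  k := D.n + 1
  l := 1
  pts := fun B => by convert D.card_ptsF B using 2; ext; simp
  thru := fun y => by convert D.card_lnsF y using 2; ext; simp
  pairP := fun y z hyz => Finset.card_eq_one.2 ⟨D.line y z hyz, by
    ext B
    simp only [Finset.mem_filter, Finset.mem_univ, true_and, Finset.mem_singleton]
    exact ⟨fun hB => (D.line_eq hyz hB.1 hB.2).symm, fun hB => hB ▸ D.line_spec hyz⟩⟩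
  pairQ := fun B C hBC => Finset.card_eq_one.2 ⟨D.dual.line B C hBC, by
    ext y
    simp only [Finset.mem_filter, Finset.mem_univ, true_and, Finset.mem_singleton]
    exact ⟨fun hy => (D.dual.line_eq hBC hy.1 hy.2).symm, fun hy => hy ▸ D.dual.line_spec hBC⟩⟩
  fix_eq := fun g => by convert D.fix_eq g
  cardQ := D.card_lines_eq
  transP := h
  transQ := D.two_dual h
  transB := fun B y y' hiff => by
    by_cases hy : D.inc y B
    · obtain ⟨g, hg, hgB⟩ := D.two_flag h y y' B B hy (hiff.1 hy)
      exact ⟨g, hgB, hg⟩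
    · obtain ⟨g, hg, hgB⟩ := D.two_antiflag h y y' B B hy fun e => hy (hiff.2 e)
      exact ⟨g, hgB, hg⟩
  two_le_k := by have := D.two_le; omega
  k_add_two := by
    rw [D.card_points]
    have := D.two_le
    have : 2 * 2 ≤ D.n ^ 2 := by rw [sq]; exact Nat.mul_le_mul ‹2 ≤ D.n› ‹2 ≤ D.n›
    omega
  mul_eq := by rw [D.card_points, one_mul, Nat.add_sub_cancel, Nat.add_sub_cancel]; ring

/-- A nontrivial collineation fixing a line pointwise gives a collineation of order dividing `n²`
which fixes an antiflag. -/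
theorem exists_antiflag_element (h : Two (G := G) (P := P)) {g : G} {l : L}
    (hg : g ∈ D.axG l) (hg1 : g ≠ 1) :
    ∃ x : G, x ≠ 1 ∧ orderOf x ∣ D.n ^ 2 ∧ ∃ (r : P) (m : L), ¬ D.inc r m ∧ x • r = r ∧ x • m = m := by
  haveI : FaithfulSMul G P := ⟨fun {x y} hxy => inv_mul_eq_one.1 (D.faithful (x⁻¹ * y) fun p => by
    rw [mul_smul, ← hxy p, inv_smul_smul])⟩
  letI := Fintype.ofFinite G
  obtain ⟨T⟩ := (D.toSym h).exists_elation (B₀ := l) (x₀ := g) hg hg1
  obtain ⟨x, hx, hx1⟩ : ∃ x ∈ T.E l, x ≠ 1 := by
    by_contra hc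
    push Not at hc
    exact T.ne_bot l ((Subgroup.eq_bot_iff_forall _).2 hc)
  letI : MulAction (T.E l) {p // ¬ D.inc p l} :=
    { smul := fun y p => ⟨(y : G) • (p : P), T.not_inc_smul y.2 p.2⟩
      one_smul := fun p => Subtype.ext (one_smul G (p : P))
      mul_smul := fun y z p => Subtype.ext (mul_smul (y : G) (z : G) (p : P)) }
  have hcard : Nat.card {p // ¬ D.inc p l} = D.n ^ 2 := by
    haveI : DecidablePred fun p => D.inc p l := fun _ => Classical.propDecidable _
    have h1 := Nat.card_congr (Equiv.sumCompl fun p => D.inc p l)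
    rw [Nat.card_sum, D.pts, Nat.card_eq_fintype_card (α := P), D.card_points] at h1
    omega
  have hdvd : Nat.card (T.E l) ∣ D.n ^ 2 := hcard ▸ card_dvd_of_semireg (H := T.E l)
    (fun y p e => Subtype.ext (T.semireg l _ y.2 _ p.2 (congrArg Subtype.val e)))
  have hord : orderOf x ∣ D.n ^ 2 := by
    have h1 := (orderOf_dvd_natCard (⟨x, hx⟩ : T.E l)).trans hdvd
    rwa [Subgroup.orderOf_mk] at h1
  have hax : x ∈ D.axG l := fun p hp => T.fixP l x hx p hp
  obtain ⟨c, hc⟩ := D.exists_centre hax
  have hcl : D.inc c l := by_contra fun hcl =>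
    hx1 (T.semireg l x hx c hcl (D.smul_eq_of_mem_cenG hc))
  obtain ⟨r, hr, hrc⟩ := D.exists_inc_ne l c
  obtain ⟨m, hm, hml⟩ := D.exists_line_ne c l
  exact ⟨x, hx1, hord, r, m, fun h' => hrc (D.eq_point hml h' hm hr hcl), hax r hr, hc m hm⟩

end Pln

end CfsgLib.OstromWagner98
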