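import Mathlib
import Cfsg.Agent.OstromWagner98.PrimePow
import Cfsg.Agent.OstromWagner98.ToSym

/-!
A finite projective plane with a doubly transitive group has a nontrivial central collineation.
-/

set_option autoImplicit false
set_option linter.unusedSectionVars false
set_option linter.style.haveILetI false

namespace CfsgLib.OstromWagner98

open MulAction Finset
open scoped _root_.Classical

variable {G P L : Type} [Group G] [MulAction G P] [MulAction G L] [Fintype P] [Fintype L]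
  [Finite G]

theorem mem_normalizer_of_conj_mem {U : Subgroup G} {g : G} (h : ∀ u ∈ U, g * u * g⁻¹ ∈ U) :
    g ∈ Subgroup.normalizer (U : Set G) := by
  have hinj : Function.Injective fun u : U => (⟨g * u * g⁻¹, h u u.2⟩ : U) := fun u v e =>
    Subtype.ext (mul_left_cancel (mul_right_cancel (congrArg Subtype.val e)))
  rw [Subgroup.mem_normalizer_iff]
  refine fun w => ⟨h w, fun hw => ?_⟩
  obtain ⟨⟨u, hu⟩, he⟩ := Finite.surjective_of_injective hinj ⟨_, hw⟩
  exact mul_left_cancel (mul_right_cancel (congrArg Subtype.val he)) ▸ hu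

/-- The stabiliser of a pair in a transitive product orbit. -/
theorem card_stab_pair {α β : Type} [MulAction G α] [MulAction G β] [Finite α] [Finite β]
    (r : α → β → Prop) (hr : ∀ (g : G) a b, r (g • a) (g • b) ↔ r a b)
    (htr : ∀ a a' b b', r a b → r a' b' → ∃ g : G, g • a = a' ∧ g • b = b') {a : α} {b : β}
    (hab : r a b) :
    Nat.card (stabilizer G a ⊓ stabilizer G b : Subgroup G) * Nat.card {z : α × β // r z.1 z.2}
      = Nat.card G := by
  have hs : stabilizer G (a, b) = stabilizer G a ⊓ stabilizer G b := by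
    ext g; simp [mem_stabilizer_iff, Prod.ext_iff]
  have ho : orbit G (a, b) = {z : α × β | r z.1 z.2} := by
    ext ⟨a', b'⟩
    simp only [mem_orbit_iff, Prod.smul_mk, Prod.ext_iff, Set.mem_setOf_eq]
    exact ⟨fun ⟨g, h1, h2⟩ => by rw [← h1, ← h2, hr]; exact hab, fun h => htr a a' b b' hab h⟩
  rw [← hs, ← Subgroup.card_mul_index (stabilizer G (a, b)), MulAction.index_stabilizer, ho]
  rfl

/-- A `p`-subgroup of order times a `p`-power dividing the group order divides a Sylow order. -/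
theorem dvd_card_sylow {p i : ℕ} [Fact p.Prime] (T : Sylow p G) {A : Subgroup G}
    (hA : IsPGroup p A) (h : Nat.card A * p ^ i ∣ Nat.card G) :
    Nat.card A * p ^ i ∣ Nat.card T := by
  obtain ⟨j, hj⟩ := IsPGroup.iff_card.1 hA
  rw [hj, ← pow_add] at h ⊢
  rw [T.card_eq_multiplicity]
  exact pow_dvd_pow p (((Fact.out : p.Prime).pow_dvd_iff_le_factorization Nat.card_pos.ne').1 h)

/-- A `p`-subgroup whose orbit fills a small set. -/
theorem orbit_fills {α : Type} [MulAction G α] [Fintype α] {A : Subgroup G} (X : Finset α)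
    (hX : ∀ g ∈ A, ∀ x ∈ X, g • x ∈ X) {q : α} (hq : q ∈ X)
    (h : Nat.card (A ⊓ stabilizer G q : Subgroup G) * #X ∣ Nat.card A) :
    (∀ y ∈ X, ∃ g ∈ A, g • q = y) ∧
      Nat.card (A ⊓ stabilizer G q : Subgroup G) * #X = Nat.card A := by
  let O : Finset α := {y | ∃ g ∈ A, g • q = y}
  have hOX : O ⊆ X := by
    intro y hy
    obtain ⟨g, hg, rfl⟩ := (Finset.mem_filter.1 hy).2
    exact hX g hg q hq
  have hcard : Nat.card (A ⊓ stabilizer G q : Subgroup G) * #O = Nat.card A := by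
    have h1 := Subgroup.card_mul_index (stabilizer A q)
    rw [MulAction.index_stabilizer] at h1
    rw [← h1]
    congr 1
    · exact Nat.card_congr ⟨fun g => ⟨⟨g.1, g.2.1⟩, g.2.2⟩, fun g => ⟨g.1.1, g.1.2, g.2⟩,
        fun g => rfl, fun g => rfl⟩
    · rw [← Set.ncard_coe_finset]
      congr 1
      ext y
      simp only [O, Finset.coe_filter, Finset.mem_univ, true_and, Set.mem_setOf_eq, mem_orbit_iff]
      exact ⟨fun ⟨g, hg, e⟩ => ⟨⟨g, hg⟩, e⟩, fun ⟨g, e⟩ => ⟨g, g.2, e⟩⟩
  have hle : #X ≤ #O := by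
    rw [← hcard] at h
    have hO : 0 < #O :=
      Finset.card_pos.2 ⟨q, Finset.mem_filter.2 ⟨Finset.mem_univ _, 1, A.one_mem, one_smul G q⟩⟩
    exact Nat.le_of_dvd hO (Nat.dvd_of_mul_dvd_mul_left Nat.card_pos h)
  have heq := Finset.eq_of_subset_of_card_le hOX hle
  refine ⟨fun y hy => ?_, by rw [← hcard, heq]⟩
  rw [← heq] at hy
  exact (Finset.mem_filter.1 hy).2

namespace Pln

variable (D : Pln G P L) [Nonempty P]

theorem card_flags : Nat.card {z : P × L // D.inc z.1 z.2} = (D.n ^ 2 + D.n + 1) * (D.n + 1) := by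
  rw [Nat.card_congr (Equiv.subtypeProdEquivSigmaSubtype fun p l => D.inc p l), Nat.card_sigma,
    Finset.sum_congr rfl fun p _ => D.lns p, Finset.sum_const, Finset.card_univ, D.card_points,
    smul_eq_mul]

theorem card_antiflags : Nat.card {z : P × L // ¬ D.inc z.1 z.2} = (D.n ^ 2 + D.n + 1) * D.n ^ 2 := by
  have h : ∀ p, Nat.card {l // ¬ D.inc p l} = D.n ^ 2 := by
    intro p
    haveI := D.nonempty_line p
    haveI : DecidablePred fun l => D.inc p l := fun _ => Classical.propDecidable _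
    have h1 := Nat.card_congr (Equiv.sumCompl fun l => D.inc p l)
    rw [Nat.card_sum, D.lns, Nat.card_eq_fintype_card (α := L), D.card_lines] at h1
    omega
  rw [Nat.card_congr (Equiv.subtypeProdEquivSigmaSubtype fun p l => ¬ D.inc p l), Nat.card_sigma,
    Finset.sum_congr rfl fun p _ => h p, Finset.sum_const, Finset.card_univ, D.card_points,
    smul_eq_mul]

theorem card_pairs : Nat.card {z : P × P // z.1 ≠ z.2} = (D.n ^ 2 + D.n + 1) * (D.n ^ 2 + D.n) := by
  have h : ∀ p : P, Nat.card {q // p ≠ q} = D.n ^ 2 + D.n := by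
    intro p
    rw [Nat.card_eq_fintype_card, Fintype.card_subtype, Finset.filter_ne, Finset.card_erase_of_mem
      (Finset.mem_univ _), Finset.card_univ, D.card_points, Nat.add_sub_cancel]
  rw [Nat.card_congr (Equiv.subtypeProdEquivSigmaSubtype fun p q => p ≠ q), Nat.card_sigma,
    Finset.sum_congr rfl fun p _ => h p, Finset.sum_const, Finset.card_univ, D.card_points,
    smul_eq_mul]

end Pln

theorem exists_axis_aux : ∀ m : ℕ, ∀ {G P L : Type} [Group G] [MulAction G P] [MulAction G L]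
    [Fintype P] [Fintype L] [Finite G] [Nonempty P] (D : Pln G P L), D.n = m →
    Pln.Two (G := G) (P := P) → ∃ g l, g ≠ 1 ∧ g ∈ D.axG l := by
  intro m
  induction m using Nat.strong_induction_on with | _ m ih
  intro G P L _ _ _ _ _ _ _ D hm hTwo
  by_contra hnone
  push Not at hnone
  obtain ⟨p, a, hp, ha, hn'⟩ := (isPrimePow_nat_iff _).1 (D.isPrimePow hTwo)
  have hn : D.n = p ^ a := hn'.symm
  haveI := Fact.mk hp
  have htwo := D.two_le
  haveI := D.nonempty_line (Classical.arbitrary P)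
  -- a Sylow subgroup and its flag
  obtain ⟨T⟩ : Nonempty (Sylow p G) := inferInstance
  letI : MulAction T {z : P × L // D.inc z.1 z.2} :=
    { smul := fun g z => ⟨((g : G) • z.1.1, (g : G) • z.1.2), (D.inc_smul g _ _).2 z.2⟩
      one_smul := fun z => Subtype.ext (Prod.ext (one_smul G z.1.1) (one_smul G z.1.2))
      mul_smul := fun g g' z => Subtype.ext
        (Prod.ext (mul_smul (g : G) (g' : G) z.1.1) (mul_smul (g : G) (g' : G) z.1.2)) }
  have hpd : ¬ p ∣ (D.n ^ 2 + D.n + 1) * (D.n + 1) := by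
    have hpn : p ∣ D.n := hn ▸ dvd_pow_self p (by omega)
    intro h
    rcases (Nat.Prime.dvd_mul hp).1 h with h | h
    · have h' : p ∣ D.n ^ 2 + D.n := Nat.dvd_add (hpn.pow two_ne_zero) hpn
      exact hp.one_lt.ne' (Nat.dvd_one.1 ((Nat.dvd_add_right h').1 h))
    · exact hp.one_lt.ne' (Nat.dvd_one.1 ((Nat.dvd_add_right hpn).1 h))
  obtain ⟨⟨⟨x, l⟩, hxl⟩, hfx⟩ := T.2.nonempty_fixed_point_of_prime_not_dvd_card
    {z : P × L // D.inc z.1 z.2} (by rw [D.card_flags]; exact hpd)
  dsimp only at hxl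
  have hTx : ∀ g ∈ (T : Subgroup G), g • x = x ∧ g • l = l := fun g hg =>
    ⟨congrArg (fun z => z.1.1) (hfx ⟨g, hg⟩), congrArg (fun z => z.1.2) (hfx ⟨g, hg⟩)⟩
  -- stabilisers of antiflags
  have hanti : ∀ (r : P) (k : L), ¬ D.inc r k →
      Nat.card (stabilizer G r ⊓ stabilizer G k : Subgroup G) * ((D.n ^ 2 + D.n + 1) * D.n ^ 2)
        = Nat.card G := by
    intro r k h
    rw [← D.card_antiflags]
    exact card_stab_pair (fun r k => ¬ D.inc r k) (fun g r k => not_congr (D.inc_smul g r k))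
      (fun a a' b b' => D.two_antiflag hTwo a a' b b') h
  have hsmall : ∀ (r : P) (k : L), ¬ D.inc r k → ∀ C : Subgroup G, IsPGroup p C →
      C ≤ stabilizer G r ⊓ stabilizer G k → Nat.card C * D.n ^ 2 ∣ Nat.card T := by
    intro r k h C hC hle
    rw [hn, ← pow_mul]
    refine dvd_card_sylow T hC ?_
    rw [pow_mul, ← hn, ← hanti r k h]
    exact Nat.mul_dvd_mul (Subgroup.card_dvd_of_le hle) (dvd_mul_left _ _)
  -- transitivity of the Sylow subgroup off `l` and on `l`
  let X : Finset P := {q | ¬ D.inc q l}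
  have hX : #X = D.n ^ 2 := by
    have h := Finset.card_filter_add_card_filter_not (s := (Finset.univ : Finset P)) (fun q => D.inc q l)
    rw [show ({q | D.inc q l} : Finset P) = D.ptsF l from rfl, D.card_ptsF, Finset.card_univ,
      D.card_points] at h
    simp only [X]
    omega
  have hoff : ∀ q, ¬ D.inc q l → (∀ y, ¬ D.inc y l → ∃ g ∈ (T : Subgroup G), g • q = y) ∧
      Nat.card ((T : Subgroup G) ⊓ stabilizer G q : Subgroup G) * D.n ^ 2 = Nat.card T := by
    intro q hq
    have h := orbit_fills (A := (T : Subgroup G)) X (fun g hg y hy => by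
      simp only [X, Finset.mem_filter, Finset.mem_univ, true_and] at hy ⊢
      exact fun h => hy ((D.inc_smul_of_fix (hTx g hg).2).1 h)) (q := q) (by simp [X, hq]) (by
      rw [hX]
      exact hsmall q l hq _ (T.2.to_le inf_le_left) (fun g hg => ⟨hg.2, (hTx g hg.1).2⟩))
    rw [hX] at h
    exact ⟨fun y hy => h.1 y (by simp [X, hy]), h.2⟩
  have hpairs : ∀ u v : P, u ≠ v →
      Nat.card (stabilizer G u ⊓ stabilizer G v : Subgroup G) *
        ((D.n ^ 2 + D.n + 1) * (D.n ^ 2 + D.n)) = Nat.card G := by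
    intro u v h
    rw [← D.card_pairs]
    exact card_stab_pair (fun u v : P => u ≠ v) (fun g u v => not_congr (smul_left_cancel_iff g))
      (fun a a' b b' h1 h2 => hTwo a b a' b' h1 h2) h
  have hon : ∀ y, D.inc y l → y ≠ x → ∀ y', D.inc y' l → y' ≠ x → ∃ g ∈ (T : Subgroup G), g • y = y' := by
    intro y hy hyx y' hy' hy'x
    have hcard : #((D.ptsF l).erase x) = D.n := by
      rw [Finset.card_erase_of_mem (D.mem_ptsF.2 hxl), D.card_ptsF]; omega
    have h := orbit_fills (A := (T : Subgroup G)) ((D.ptsF l).erase x) (fun g hg u hu => by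
      simp only [Finset.mem_erase, Pln.mem_ptsF] at hu ⊢
      refine ⟨fun e => hu.1 ?_, (D.inc_smul_of_fix (hTx g hg).2).2 hu.2⟩
      conv at e => rhs; rw [← (hTx g hg).1]
      exact smul_left_cancel _ e) (q := y) (by simp [hy, hyx]) (by
      rw [hcard, hn]
      refine dvd_card_sylow T (T.2.to_le inf_le_left) ?_
      rw [← hn, ← hpairs x y hyx.symm]
      refine Nat.mul_dvd_mul (Subgroup.card_dvd_of_le fun g hg => ⟨(hTx g hg.1).1, hg.2⟩) ?_
      exact dvd_mul_of_dvd_right (Nat.dvd_add (dvd_pow_self _ two_ne_zero) dvd_rfl) _)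
    exact h.1 y' (by simp [hy', hy'x])
  -- a central element of order `p`
  obtain ⟨q, hq⟩ := D.exists_not_inc l
  haveI : Nontrivial T := by
    have h2 : 2 ≤ Nat.card T := by
      rw [← (hoff q hq).2]
      have : 2 * 2 ≤ D.n ^ 2 := by rw [sq]; exact Nat.mul_le_mul htwo htwo
      have h0 : 0 < Nat.card ((T : Subgroup G) ⊓ stabilizer G q : Subgroup G) := Nat.card_pos
      nlinarith
    exact Finite.one_lt_card_iff_nontrivial.1 h2
  haveI := T.2.center_nontrivial
  obtain ⟨e, he⟩ := IsPGroup.iff_card.1 (T.2.to_subgroup (Subgroup.center T))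
  have he0 : e ≠ 0 := by
    rintro rfl
    exact absurd he (by rw [pow_zero]; exact (Finite.one_lt_card (α := Subgroup.center T)).ne')
  obtain ⟨⟨⟨z, hzT⟩, hzc⟩, hz⟩ := exists_prime_orderOf_dvd_card' (G := Subgroup.center T) p
    (he ▸ dvd_pow_self p he0)
  have hz1 : z ≠ 1 := by
    intro e
    subst e
    simp only [Subgroup.orderOf_mk, orderOf_one] at hz
    exact hp.one_lt.ne hz
  have hzg : ∀ g ∈ (T : Subgroup G), g * z = z * g := fun g hg =>
    congrArg Subtype.val (Subgroup.mem_center_iff.1 hzc ⟨g, hg⟩)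
  have hzoff : ∀ u, ¬ D.inc u l → z • u ≠ u := by
    intro u hu hzu
    have hall : ∀ w, ¬ D.inc w l → z • w = w := by
      intro w hw
      obtain ⟨g, hg, rfl⟩ := (hoff u hu).1 w hw
      rw [smul_smul, ← hzg g hg, mul_smul, hzu]
    apply hz1
    have hlines : ∀ k, k ≠ l → z • k = k := by
      intro k hk
      obtain ⟨c, hck, hcl⟩ := D.meet k l hk
      obtain ⟨u₁, h₁, h₁c⟩ := D.exists_inc_ne k c
      obtain ⟨u₂, h₂, h₂c, h₂₁⟩ := D.exists_inc_ne₂ k c u₁
      exact D.smul_line_of_fix h₂₁ h₂ h₁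
        (hall u₂ fun h => h₂c (D.eq_point hk h₂ hck h hcl))
        (hall u₁ fun h => h₁c (D.eq_point hk h₁ hck h hcl))
    refine D.faithful z fun w => ?_
    obtain ⟨k₁, hk₁, hk₁l⟩ := D.exists_line_ne w l
    obtain ⟨k₂, hk₂, hk₂l, hk₂₁⟩ := D.exists_line_ne₂ w l k₁
    exact D.smul_point_of_fix hk₂₁ hk₂ hk₁ (hlines k₂ hk₂l) (hlines k₁ hk₁l)
  have hzon : ∀ y, D.inc y l → y ≠ x → z • y ≠ y := by
    intro y hy hyx hzy
    refine hnone z l hz1 fun w hw => ?_
    by_cases hwx : w = x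
    · rw [hwx]; exact (hTx z hzT).1
    obtain ⟨g, hg, rfl⟩ := hon y hy hyx w hw hwx
    rw [smul_smul, ← hzg g hg, mul_smul, hzy]
  have hzline : ∀ k, z • k = k → k = l := by
    have h1 : ({u : P | z • u = u} : Finset P) = {x} := by
      ext u
      simp only [Finset.mem_filter, Finset.mem_univ, true_and, Finset.mem_singleton]
      refine ⟨fun h => ?_, fun h => h ▸ (hTx z hzT).1⟩
      by_contra hux
      by_cases hul : D.inc u l
      · exact hzon u hul hux h
      · exact hzoff u hul h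
    have h2 : #({k : L | z • k = k} : Finset L) = 1 := by
      rw [← D.fix_eq, h1, Finset.card_singleton]
    intro k hk
    exact Finset.card_le_one.1 h2.le k (by simp [hk]) l (by simp [(hTx z hzT).2])
  -- the planar subgroup
  set R := (T : Subgroup G) ⊓ stabilizer G q with hR
  have hRp : IsPGroup p R := T.2.to_le inf_le_left
  have hRcard : Nat.card R * D.n ^ 2 = Nat.card T := (hoff q hq).2
  have hRmax : ∀ (r : P) (k : L), ¬ D.inc r k → ∀ C : Subgroup G, IsPGroup p C →
      C ≤ stabilizer G r ⊓ stabilizer G k → Nat.card C ≤ Nat.card R := by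
    intro r k h C hC hle
    have h1 := hsmall r k h C hC hle
    rw [← hRcard] at h1
    exact Nat.le_of_dvd Nat.card_pos (Nat.dvd_of_mul_dvd_mul_right (pow_pos (by omega) 2) h1)
  have hRne : R ≠ ⊥ := by
    intro hbot
    obtain ⟨y, hy, hyx⟩ := D.exists_inc_ne l x
    have h1 := hpairs x y hyx.symm
    rw [← hanti q l hq, show D.n ^ 2 + D.n = D.n * (D.n + 1) by ring, sq, ← mul_assoc, ← mul_assoc,
      ← mul_assoc, ← mul_assoc] at h1
    have h2 : Nat.card (stabilizer G x ⊓ stabilizer G y : Subgroup G) * (D.n + 1)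
        = Nat.card (stabilizer G q ⊓ stabilizer G l : Subgroup G) * D.n :=
      Nat.eq_of_mul_eq_mul_left (show 0 < (D.n * D.n + D.n + 1) * D.n from
        Nat.mul_pos (by omega) (by omega)) (by linarith [h1])
    have hpn : p ∣ D.n := hn ▸ dvd_pow_self p (by omega)
    have h3 : p ∣ Nat.card (stabilizer G x ⊓ stabilizer G y : Subgroup G) * (D.n + 1) :=
      h2 ▸ dvd_mul_of_dvd_right hpn _
    obtain ⟨⟨w, hwS⟩, hw⟩ := exists_prime_orderOf_dvd_card'
      (G := (stabilizer G x ⊓ stabilizer G y : Subgroup G)) p (((Nat.Prime.dvd_mul hp).1 h3).resolve_right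
        fun h => hp.one_lt.ne' (Nat.dvd_one.1 ((Nat.dvd_add_right hpn).1 h)))
    rw [Subgroup.orderOf_mk] at hw
    obtain ⟨hwx, hwy⟩ := hwS
    have hw1 : 1 < #({k : L | w • k = k} : Finset L) := by
      rw [← D.fix_eq]
      exact Finset.one_lt_card.2 ⟨x, by simpa using hwx, y, by simpa using hwy, hyx.symm⟩
    obtain ⟨k, hk, hkl⟩ := Finset.exists_mem_ne hw1 l
    simp only [Finset.mem_filter, Finset.mem_univ, true_and] at hk
    obtain ⟨r, hr, hwr⟩ : ∃ r, ¬ D.inc r k ∧ w • r = r := by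
      by_cases hxk : D.inc x k
      · exact ⟨y, fun hyk => hkl (D.eq_line hyx hyk hxk hy hxl), hwy⟩
      · exact ⟨x, hxk, hwx⟩
    have h4 := hRmax r k hr (Subgroup.zpowers w)
      (pgroup_zpowers_of_orderOf (k := 1) (by rw [hw, pow_one]))
      (Subgroup.zpowers_le.2 ⟨hwr, hk⟩)
    rw [Nat.card_zpowers, hw, hbot, Subgroup.card_bot] at h4
    exact absurd h4 (not_le.2 hp.one_lt)
  -- a frame fixed by `R`
  have hqz : z • q ≠ q := hzoff q hq
  have hzql : ¬ D.inc (z • q) l := fun h => hq ((D.inc_smul_of_fix (hTx z hzT).2).1 h)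
  obtain ⟨hqk, hzqk⟩ := D.line_spec hqz.symm
  generalize D.line q (z • q) hqz.symm = k at hqk hzqk
  have hkl : k ≠ l := fun e => hq (e ▸ hqk)
  obtain ⟨y, hyk, hyl⟩ := D.meet k l hkl
  have hyx : y ≠ x := by
    intro e
    subst e
    refine hkl (hzline k ?_)
    have hxzq : y ≠ z • q := fun e => hzql (e ▸ hxl)
    have h1 := (D.inc_smul z y k).2 hyk
    rw [(hTx z hzT).1] at h1
    exact D.eq_line hxzq h1 ((D.inc_smul z q k).2 hqk) hyk hzqk
  have hzy : z • y ≠ y := hzon y hyl hyx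
  have hzyl : D.inc (z • y) l := (D.inc_smul_of_fix (hTx z hzT).2).2 hyl
  have hzyx : z • y ≠ x := fun e => hyx (by
    rw [← (hTx z hzT).1] at e; exact smul_left_cancel _ e)
  have hframe : D.Frame x (z • y) q (z • q) := by
    intro j
    refine ⟨?_, ?_, ?_, ?_⟩ <;> rintro ⟨h1, h2, h3⟩
    · exact hq (D.eq_line hzyx h2 h1 hzyl hxl ▸ h3)
    · exact hzql (D.eq_line hzyx h2 h1 hzyl hxl ▸ h3)
    · have e := D.eq_line hqz.symm h2 h3 hqk hzqk
      subst e
      exact hyx (D.eq_point hkl hyk h1 hyl hxl)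
    · have e := D.eq_line hqz.symm h2 h3 hqk hzqk
      subst e
      exact hzy (D.eq_point hkl h1 hyk hzyl hyl)
  have hRfix : ∀ g ∈ R, g • x = x ∧ g • (z • y) = z • y ∧ g • q = q ∧ g • (z • q) = z • q := by
    intro g hg
    have hgq : g • q = q := hg.2
    have hgzq : g • z • q = z • q := by rw [smul_smul, hzg g hg.1, mul_smul, hgq]
    have hgy : g • y = y := D.smul_point_of_fix hkl hyk hyl
      (D.smul_line_of_fix hqz.symm hqk hzqk hgq hgzq) (hTx g hg.1).2
    exact ⟨(hTx g hg.1).1, by rw [smul_smul, hzg g hg.1, mul_smul, hgy], hgq, hgzq⟩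
  have hpl : D.Planar R := ⟨x, z • y, q, z • q, hframe, hRfix⟩
  haveI := D.nonempty_fx hpl
  set W := D.sub hpl with hW
  -- `p` divides the order of the subplane
  have hlR : ∀ g ∈ R, g • l = l := fun g hg => (hTx g hg.1).2
  letI : MulAction R {u // D.inc u l} :=
    { smul := fun g u => ⟨(g : G) • (u : P), (D.inc_smul_of_fix (hlR g g.2)).2 u.2⟩
      one_smul := fun u => Subtype.ext (one_smul G (u : P))
      mul_smul := fun g g' u => Subtype.ext (mul_smul (g : G) (g' : G) (u : P)) }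
  have hmod := hRp.card_modEq_card_fixedPoints {u // D.inc u l}
  have hfp : Nat.card (fixedPoints R {u // D.inc u l}) = W.n + 1 := by
    rw [hW, ← D.sub_pts hpl ⟨l, hlR⟩, Nat.card_congr (α := fixedPoints R {u // D.inc u l})
      (β := {u // u ∈ ({u ∈ D.ptsF l | ∀ g ∈ R, g • u = u} : Finset P)})
      ⟨fun u => ⟨u.1.1, Finset.mem_filter.2 ⟨D.mem_ptsF.2 u.1.2,
          fun g hg => congrArg Subtype.val (u.2 ⟨g, hg⟩)⟩⟩,
        fun u => ⟨⟨u.1, D.mem_ptsF.1 (Finset.mem_filter.1 u.2).1⟩,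
          fun g => Subtype.ext ((Finset.mem_filter.1 u.2).2 g g.2)⟩,
        fun _ => rfl, fun _ => rfl⟩,
      Nat.card_eq_fintype_card, Fintype.card_coe]
  rw [D.pts, hfp] at hmod
  have hpW : p ∣ W.n := by
    have h1 := Nat.ModEq.add_right_cancel' 1 hmod
    rw [← Nat.modEq_zero_iff_dvd]
    exact h1.symm.trans (Nat.modEq_zero_iff_dvd.2 (hn ▸ dvd_pow_self p (by omega)))
  have hlt : W.n < D.n := D.sub_n_lt hpl hRne
  -- the normaliser is antiflag transitive on the subplane
  have hAT : W.AntiFlag := by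
    intro r r' k k' hr hr'
    rw [D.sub_inc] at hr hr'
    obtain ⟨g, hgr, hgk⟩ := D.two_antiflag hTwo r.1 r'.1 k.1 k'.1 hr hr'
    have hconj : R.map (MulAut.conj g).toMonoidHom ≤ stabilizer G r'.1 ⊓ stabilizer G k'.1 := by
      rintro _ ⟨u, hu, rfl⟩
      simp only [Subgroup.mem_inf, mem_stabilizer_iff, MulEquiv.coe_toMonoidHom, MulAut.conj_apply]
      rw [← hgr, ← hgk]
      exact ⟨by rw [mul_smul, mul_smul, inv_smul_smul, r.2 u hu],
        by rw [mul_smul, mul_smul, inv_smul_smul, k.2 u hu]⟩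
    have hM : MaxP p (stabilizer G r'.1 ⊓ stabilizer G k'.1) R :=
      maxP_of_card (fun u hu => ⟨r'.2 u hu, k'.2 u hu⟩) hRp fun C hC hCp => hRmax _ _ hr' C hCp hC
    obtain ⟨s, hs, hsR⟩ := hM.exists_conj hconj (hRp.map _)
    have hN : s * g ∈ Subgroup.normalizer (R : Set G) := mem_normalizer_of_conj_mem fun u hu => by
      have := hsR _ ⟨u, hu, rfl⟩
      simpa [mul_assoc] using this
    refine ⟨toFxG P L R ⟨s * g, hN⟩, Subtype.ext ?_, Subtype.ext ?_⟩
    · show (s * g) • r.1 = r'.1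
      rw [mul_smul, hgr]; exact hs.1
    · show (s * g) • k.1 = k'.1
      rw [mul_smul, hgk]; exact hs.2
  have hWTwo := W.antiflag_two hAT
  obtain ⟨p', i, hp', hi, hk⟩ := (isPrimePow_nat_iff _).1 (W.isPrimePow hWTwo)
  have hpp : p = p' := (Nat.prime_dvd_prime_iff_eq hp hp').1 (hp.dvd_of_dvd_pow (hk ▸ hpW))
  obtain ⟨g, j, hg1, hg⟩ := ih W.n (hm ▸ hlt) W rfl hWTwo
  obtain ⟨u, hu1, hu, r, k', hrk, hur, huk⟩ := W.exists_antiflag_element hWTwo hg hg1
  rw [← hk, ← hpp, ← pow_mul] at hu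
  obtain ⟨b, -, hb⟩ := (Nat.dvd_prime_pow hp).1 hu
  -- lift to a `p`-element
  obtain ⟨v, rfl⟩ := toFxG_surjective R u
  obtain ⟨e', o, ho, hv⟩ :=
    Nat.exists_eq_pow_mul_and_not_dvd (isOfFinOrder_of_finite v).orderOf_pos.ne' p hp.ne_one
  have hvo : toFxG P L R (v ^ o) ≠ 1 := by
    rw [map_pow]
    intro h
    have h1 : p ^ b ∣ o := hb ▸ orderOf_dvd_of_pow_eq_one h
    rcases b with _ | b
    · exact hu1 (orderOf_eq_one_iff.1 (by rw [hb, pow_zero]))
    · exact ho ((dvd_pow_self p (by omega)).trans h1)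
  have hvp : IsPGroup p (Subgroup.zpowers ((v ^ o : Subgroup.normalizer (R : Set G)) : G)) :=
    pgroup_zpowers_of_orderOf (k := e') (by
      rw [SubmonoidClass.coe_pow, orderOf_pow, Subgroup.orderOf_coe, hv,
        Nat.gcd_eq_right (dvd_mul_left o (p ^ e')),
        Nat.mul_div_cancel _ (Nat.pos_of_ne_zero fun h0 => ho (by rw [h0]; exact dvd_zero p))])
  have hsup : IsPGroup p (Subgroup.zpowers ((v ^ o : Subgroup.normalizer (R : Set G)) : G) ⊔ R : Subgroup G) :=
    hvp.to_sup_of_normal_right' hRp (Subgroup.zpowers_le.2 (v ^ o).2)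
  rw [D.sub_inc] at hrk
  have hle : Subgroup.zpowers ((v ^ o : Subgroup.normalizer (R : Set G)) : G) ⊔ R ≤
      stabilizer G r.1 ⊓ stabilizer G k'.1 := by
    refine sup_le (Subgroup.zpowers_le.2 ?_) fun w hw => ⟨r.2 w hw, k'.2 w hw⟩
    rw [SubmonoidClass.coe_pow]
    exact Subgroup.pow_mem (stabilizer G r.1 ⊓ stabilizer G k'.1)
      ⟨congrArg Subtype.val hur, congrArg Subtype.val huk⟩ _
  have heq := Subgroup.eq_of_le_of_card_ge le_sup_right (hRmax _ _ hrk _ hsup hle)
  have hmem : ((v ^ o : Subgroup.normalizer (R : Set G)) : G) ∈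
      Subgroup.zpowers ((v ^ o : Subgroup.normalizer (R : Set G)) : G) ⊔ R :=
    Subgroup.mem_sup_left (Subgroup.mem_zpowers _)
  rw [← heq] at hmem
  exact hvo (toFxG_eq_one _ hmem)

/-- A finite projective plane with a doubly transitive group has a nontrivial element fixing a
line pointwise. -/
theorem Pln.exists_axis [Nonempty P] (D : Pln G P L) (hTwo : Pln.Two (G := G) (P := P)) :
    ∃ g l, g ≠ 1 ∧ g ∈ D.axG l :=
  exists_axis_aux _ D rfl hTwo

end CfsgLib.OstromWagner98
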